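import Mathlib
import Cfsg.Agent.Lib.Coprime.CopAbove
import Cfsg.Agent.Lib.CharExtra.Central
import Cfsg.Agent.Lib.Char.Product
import Cfsg.Agent.S4449

/-!
# Invariant characters over a central character under coprime action
-/

set_option autoImplicit false
set_option linter.style.haveILetI false
set_option linter.unusedSectionVars false
set_option linter.unusedSimpArgs false
set_option linter.unnecessarySimpa false

open scoped ComplexConjugate Pointwise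
open Cfsg Cfsg.Agent.Lib.Char

namespace Cfsg.Agent.Lib.Coprime

universe u

/-- A number splits into a part with primes dividing `m` and a part coprime to `m`. -/
theorem exists_split_coprime (m : ℕ) : ∀ e : ℕ, 0 < e → ∃ a b : ℕ, e = a * b ∧ b.Coprime m ∧ (∀ p : ℕ, p.Prime → p ∣ a → p ∣ m) := by
  intro e
  induction e using Nat.strong_induction_on with
  | _ e ih =>
  intro he
  by_cases h : e.Coprime m
  · exact ⟨1, e, by simp, h, fun p hp h1 => absurd (Nat.dvd_one.mp h1) hp.one_lt.ne'⟩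
  · obtain ⟨p, hp, hpe, hpm⟩ := Nat.Prime.not_coprime_iff_dvd.mp h
    obtain ⟨e', rfl⟩ := hpe
    have he' : 0 < e' := Nat.pos_of_mul_pos_left he
    have hlt : e' < p * e' := by
      have := hp.two_le
      nlinarith
    obtain ⟨a, b, rfl, hb, ha⟩ := ih e' hlt he'
    refine ⟨p * a, b, by ring, hb, fun q hq h1 => ?_⟩
    rcases (Nat.Prime.dvd_mul hq).mp h1 with h2 | h2
    · rw [(Nat.prime_dvd_prime_iff_eq hq hp).mp h2]
      exact hpm
    · exact ha q hq h2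

section Central

variable {Γ : Type u} [Group Γ] [Finite Γ]

/-- The elements of a central subgroup of exponent dividing `a`. -/
def torsionSub (Z : Subgroup Γ) (hZc : ∀ z ∈ Z, ∀ x, z * x = x * z) (a : ℕ) : Subgroup Γ where
  carrier := {z | z ∈ Z ∧ z ^ a = 1}
  one_mem' := ⟨Z.one_mem, one_pow a⟩
  mul_mem' := by
    rintro x y ⟨hx, hx'⟩ ⟨hy, hy'⟩
    refine ⟨Z.mul_mem hx hy, ?_⟩
    have h1 : Commute x y := hZc x hx y
    rw [h1.mul_pow, hx', hy', one_mul]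
  inv_mem' := by
    rintro x ⟨hx, hx'⟩
    exact ⟨Z.inv_mem hx, by rw [inv_pow, hx', inv_one]⟩

theorem mem_torsionSub {Z : Subgroup Γ} {hZc : ∀ z ∈ Z, ∀ x, z * x = x * z} {a : ℕ} {z : Γ} :
    z ∈ torsionSub Z hZc a ↔ z ∈ Z ∧ z ^ a = 1 := Iff.rfl

/-- **The central case.** -/
theorem central_inv (G Z : Subgroup Γ) [hG : G.Normal] (hZG : Z ≤ G) (hZc : ∀ z ∈ Z, ∀ x, z * x = x * z) (m f : ℕ)
    (hmf : m.Coprime f) (hm : ∀ x : Γ, x ^ m ∈ G) (hf : ∀ g ∈ G, g ^ f ∈ Z) (hsol : Group.IsSolvable (Γ ⧸ G)) (μ : Z →* ℂˣ) :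
    ∃ β : IrrCharacter G, (∀ (x : Γ) (g : G), (β : G → ℂ) ⟨x * g * x⁻¹, hG.conj_mem g g.2 x⟩ = (β : G → ℂ) g) ∧
      ∀ (z : Z) (g : G), (β : G → ℂ) (⟨z, hZG z.2⟩ * g) = (μ z : ℂ) * (β : G → ℂ) g := by
  classical
  obtain ⟨a, b, hab, hbm, hap⟩ := exists_split_coprime m (Nat.card Z) Nat.card_pos
  have haf : a.Coprime f := by
    refine Nat.coprime_of_dvd fun p hp h1 h2 => ?_
    have h3 := hap p hp h1
    have h4 := Nat.dvd_gcd h3 h2
    rw [hmf] at h4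
    exact hp.one_lt.ne' (Nat.dvd_one.mp h4)
  have habc : a.Coprime b := by
    refine Nat.coprime_of_dvd fun p hp h1 h2 => ?_
    have h3 := hap p hp h1
    have h4 := Nat.dvd_gcd h2 h3
    rw [hbm] at h4
    exact hp.one_lt.ne' (Nat.dvd_one.mp h4)
  let A := torsionSub Z hZc a
  let B := torsionSub Z hZc b
  have hAZ : ∀ z ∈ A, z ∈ Z := fun z hz => hz.1
  set e₁ := f * b with he₁
  have hcopa : a.Coprime e₁ := Nat.Coprime.mul_right haf habc
  have hcopm : m.Coprime e₁ := Nat.Coprime.mul_right hmf hbm.symm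
  have hZcard : ∀ z ∈ Z, z ^ (a * b) = 1 := by
    intro z hz
    have h1 := pow_card_eq_one' (x := (⟨z, hz⟩ : Z))
    rw [hab] at h1
    exact congrArg Subtype.val h1
  have h1 : ∀ g ∈ G, g ^ e₁ ∈ A := by
    intro g hg
    have h2 := hf g hg
    refine ⟨?_, ?_⟩
    · rw [he₁, pow_mul]
      exact Z.pow_mem h2 b
    · rw [he₁, pow_mul, ← pow_mul, mul_comm b a]
      exact hZcard _ h2
  -- the subgroup `A` in `G`
  let A₁ : Subgroup G := A.subgroupOf G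
  haveI hA₁n : A₁.Normal := by
    refine ⟨fun n hn g => ?_⟩
    have h2 : (n : Γ) ∈ A := hn
    have h3 : (g : Γ) * n * (g : Γ)⁻¹ = n := by
      rw [← hZc _ (hAZ _ h2) g]
      group
    show (g : Γ) * n * (g : Γ)⁻¹ ∈ A
    rw [h3]
    exact h2
  have hcopA₁ : (Nat.card A₁).Coprime A₁.index := by
    refine Nat.coprime_of_dvd fun p hp h2 h3 => ?_
    haveI : Fact p.Prime := ⟨hp⟩
    obtain ⟨z, hz⟩ := exists_prime_orderOf_dvd_card' (G := A₁) p h2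
    have h4 : (z : G) ^ a = 1 := by
      have h5 : ((z : G) : Γ) ∈ A := z.2
      exact Subtype.ext h5.2
    have h5 : z ^ a = 1 := Subtype.ext h4
    have h6 : p ∣ a := by
      rw [← hz]
      exact orderOf_dvd_of_pow_eq_one h5
    have h7 := hap p hp h6
    haveI : Finite (G ⧸ A₁) := inferInstance
    obtain ⟨q, hq⟩ := exists_prime_orderOf_dvd_card' (G := G ⧸ A₁) p h3
    obtain ⟨g, rfl⟩ := QuotientGroup.mk_surjective q
    have h8 : ((g : G ⧸ A₁)) ^ e₁ = 1 := by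
      rw [← QuotientGroup.mk_pow, QuotientGroup.eq_one_iff]
      exact h1 g g.2
    have h9 : p ∣ e₁ := by
      rw [← hq]
      exact orderOf_dvd_of_pow_eq_one h8
    have h10 := Nat.dvd_gcd h7 h9
    rw [hcopm] at h10
    exact hp.one_lt.ne' (Nat.dvd_one.mp h10)
  obtain ⟨L₁, hL₁⟩ := Subgroup.exists_right_complement'_of_coprime hcopA₁
  let L : Subgroup Γ := L₁.map G.subtype
  have hLG : L ≤ G := by
    rintro _ ⟨l, _, rfl⟩
    exact l.2
  have hAL : ∀ y, y ∈ A → y ∈ L → y = 1 := by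
    rintro y hy ⟨l, hl, rfl⟩
    have h2 : l ∈ A₁ := hy
    have h3 := Subgroup.disjoint_def.mp hL₁.disjoint h2 hl
    rw [h3]
    rfl
  have hdec : ∀ g ∈ G, ∃ z ∈ A, ∃ l ∈ L, g = z * l := by
    intro g hg
    have h2 : (⟨g, hg⟩ : G) ∈ ((A₁ ⊔ L₁ : Subgroup G) : Set G) := by
      rw [hL₁.sup_eq_top]
      trivial
    rw [Subgroup.normal_mul] at h2
    obtain ⟨z, hz, l, hl, h3⟩ := Set.mem_mul.mp h2
    refine ⟨z, hz, l, ⟨l, hl, rfl⟩, ?_⟩
    exact (congrArg Subtype.val h3).symm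
  have hLpow : ∀ l ∈ L, l ^ e₁ = 1 :=
    fun l hl => hAL _ (h1 l (hLG hl)) (L.pow_mem hl e₁)
  have hLmem : ∀ g, g ∈ L ↔ g ∈ G ∧ g ^ e₁ = 1 := by
    intro g
    constructor
    · exact fun h => ⟨hLG h, hLpow g h⟩
    · rintro ⟨hg, h2⟩
      obtain ⟨z, hz, l, hl, rfl⟩ := hdec g hg
      have h3 : Commute z l := hZc z (hAZ z hz) l
      rw [h3.mul_pow, hLpow l hl, mul_one] at h2
      have h4 : z = 1 := by
        have h5 := pow_gcd_eq_one.mpr ⟨hz.2, h2⟩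
        rwa [hcopa, pow_one] at h5
      rw [h4, one_mul]
      exact hl
  haveI hLn : L.Normal := by
    refine ⟨fun l hl x => ?_⟩
    rw [hLmem] at hl ⊢
    refine ⟨hG.conj_mem l hl.1 x, ?_⟩
    rw [conj_pow, hl.2]
    simp
  have hcopL : (Nat.card L).Coprime L.index := by
    refine Nat.coprime_of_dvd fun p hp h2 h3 => ?_
    haveI : Fact p.Prime := ⟨hp⟩
    obtain ⟨l, hl⟩ := exists_prime_orderOf_dvd_card' (G := L) p h2
    have h4 : l ^ e₁ = 1 := Subtype.ext (hLpow l l.2)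
    have h5 : p ∣ e₁ := by
      rw [← hl]
      exact orderOf_dvd_of_pow_eq_one h4
    haveI : Finite (Γ ⧸ L) := inferInstance
    obtain ⟨q, hq⟩ := exists_prime_orderOf_dvd_card' (G := Γ ⧸ L) p h3
    obtain ⟨x, rfl⟩ := QuotientGroup.mk_surjective q
    have h8 : ((x : Γ ⧸ L)) ^ (m * a) = 1 := by
      rw [← QuotientGroup.mk_pow, QuotientGroup.eq_one_iff, pow_mul]
      obtain ⟨z, hz, l', hl', h9⟩ := hdec (x ^ m) (hm x)
      rw [h9]
      have h10 : Commute z l' := hZc z (hAZ z hz) l'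
      rw [h10.mul_pow, hz.2, one_mul]
      exact L.pow_mem hl' a
    have h9 : p ∣ m * a := by
      rw [← hq]
      exact orderOf_dvd_of_pow_eq_one h8
    have h10 : p ∣ m := by
      rcases (Nat.Prime.dvd_mul hp).mp h9 with h | h
      · exact h
      · exact hap p hp h
    have h11 := Nat.dvd_gcd h10 h5
    rw [hcopm] at h11
    exact hp.one_lt.ne' (Nat.dvd_one.mp h11)
  obtain ⟨P, hP⟩ := Subgroup.exists_right_complement'_of_coprime hcopL
  have hLP : ∀ y, y ∈ L → y ∈ P → y = 1 := fun y h2 h3 => Subgroup.disjoint_def.mp hP.disjoint h2 h3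
  -- solvability of the complement
  have hPsol : Group.IsSolvable P := by
    let g : P →* Γ ⧸ G := (QuotientGroup.mk' G).comp P.subtype
    let K : Subgroup P := G.subgroupOf P
    have hKcomm : ∀ y₁ y₂ : K, y₁ * y₂ = y₂ * y₁ := by
      intro y₁ y₂
      obtain ⟨z₁, hz₁, l₁, hl₁, e₁'⟩ := hdec ((y₁ : P) : Γ) y₁.2
      obtain ⟨z₂, hz₂, l₂, hl₂, e₂'⟩ := hdec ((y₂ : P) : Γ) y₂.2
      have e3 : ((y₁ : P) : Γ) * ((y₂ : P) : Γ) = (z₁ * z₂) * (l₁ * l₂) := by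
        rw [e₁', e₂', mul_assoc z₁ l₁, ← mul_assoc l₁ z₂, ← hZc z₂ (hAZ z₂ hz₂) l₁]
        group
      have e4 : ((y₂ : P) : Γ) * ((y₁ : P) : Γ) = (z₁ * z₂) * (l₂ * l₁) := by
        rw [e₁', e₂', mul_assoc z₂ l₂, ← mul_assoc l₂ z₁, ← hZc z₁ (hAZ z₁ hz₁) l₂, hZc z₁ (hAZ z₁ hz₁) z₂]
        group
      have hw : (((y₂ : P) : Γ) * ((y₁ : P) : Γ))⁻¹ * (((y₁ : P) : Γ) * ((y₂ : P) : Γ)) = 1 := by
        apply hLP
        · rw [e3, e4]
          have h5 : ((z₁ * z₂) * (l₂ * l₁))⁻¹ * ((z₁ * z₂) * (l₁ * l₂)) = (l₂ * l₁)⁻¹ * (l₁ * l₂) := by group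
          rw [h5]
          exact L.mul_mem (L.inv_mem (L.mul_mem hl₂ hl₁)) (L.mul_mem hl₁ hl₂)
        · exact P.mul_mem (P.inv_mem (P.mul_mem (y₂ : P).2 (y₁ : P).2)) (P.mul_mem (y₁ : P).2 (y₂ : P).2)
      apply Subtype.ext
      apply Subtype.ext
      have h6 := inv_mul_eq_one.mp hw
      exact h6.symm
    haveI : Group.IsSolvable K := Group.isSolvable_of_comm hKcomm
    exact solvable_of_ker_le_range K.subtype g (by
      intro y hy
      refine ⟨⟨y, ?_⟩, rfl⟩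
      exact (QuotientGroup.eq_one_iff ((y : P) : Γ)).mp (MonoidHom.mem_ker.mp hy))
  -- the Glauberman correspondence applied to `L`
  letI : Fintype Γ := Fintype.ofFinite _
  letI : Fintype L := Fintype.ofFinite _
  letI : Fintype B := Fintype.ofFinite _
  letI : Fintype P := Fintype.ofFinite _
  have hBZ : B ≤ Z := fun z hz => hz.1
  have hAZ' : A ≤ Z := fun z hz => hz.1
  have hBL : B ≤ L := by
    intro z hz
    rw [hLmem]
    refine ⟨hZG hz.1, ?_⟩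
    rw [he₁, mul_comm, pow_mul, hz.2, one_pow]
  have hBcen : ∀ z ∈ B, ∀ x : Γ, x * z * x⁻¹ = z := by
    intro z hz x
    rw [← hZc z hz.1 x]
    group
  let μB : B →* ℂˣ := μ.comp (Subgroup.inclusion hBZ)
  let θ₀ : IrrCharacter B := ⟨fun b => (μB b : ℂ), isIrrCharacter_of_hom μB⟩
  have hcopLP : (Nat.card L).Coprime (Nat.card P) := by
    rw [← hP.symm.index_eq_card]
    exact hcopL
  obtain ⟨χ₁, hover, hinv⟩ := Cfsg.Agent.S4449.result (Γ := Γ) L P B (fun s _ g hg => hLn.conj_mem g hg s) hBL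
    (fun g _ n hn => by
      rw [hBcen n hn g]
      exact hn)
    (fun g _ n hn => by
      rw [hBcen n hn g]
      exact hn) hcopLP hPsol θ₀
    (fun s _ g g' h2 => by
      have h3 : g' = g := Subtype.ext (by rw [h2, hBcen g g.2 s])
      rw [h3])
  have hχ₁Γ : ∀ (x : Γ) (l : L), (χ₁ : L → ℂ) ⟨x * l * x⁻¹, hLn.conj_mem l l.2 x⟩ = (χ₁ : L → ℂ) l := by
    intro x l
    have h2 : x ∈ ((L ⊔ P : Subgroup Γ) : Set Γ) := by
      rw [hP.sup_eq_top]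
      trivial
    rw [Subgroup.normal_mul] at h2
    obtain ⟨l₀, hl₀, p, hp, rfl⟩ := Set.mem_mul.mp h2
    have h3 := hinv p hp l ⟨p * l * p⁻¹, hLn.conj_mem l l.2 p⟩ rfl
    have h4 := IsCharacter.isClassFunction (IsIrrCharacter.isCharacter χ₁.2) ⟨p * l * p⁻¹, hLn.conj_mem l l.2 p⟩ ⟨l₀, hl₀⟩
    rw [← h3, ← h4]
    refine congrArg _ (Subtype.ext ?_)
    show l₀ * p * l * (l₀ * p)⁻¹ = l₀ * (p * l * p⁻¹) * l₀⁻¹
    group
  -- the central scalar on `L`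
  let B₁ : Subgroup L := B.subgroupOf L
  letI : Fintype B₁ := Fintype.ofFinite _
  let ι : B₁ ≃* B := Subgroup.subgroupOfEquivOfLe hBL
  have hB₁ : B₁ ≤ Subgroup.center L := by
    intro b hb
    rw [Subgroup.mem_center_iff]
    intro l
    apply Subtype.ext
    have h2 : ((b : L) : Γ) ∈ B := hb
    exact (hZc _ h2.1 _).symm
  have hover₁ : classInner (fun n : B₁ => (χ₁ : L → ℂ) n) ((θ₀ : B → ℂ) ∘ ι) ≠ 0 := by
    have h2 := classInner_comp_equiv ι (fun n : B => (χ₁ : L → ℂ) ⟨n, hBL n.2⟩) (θ₀ : B → ℂ)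
    rw [← h2] at hover
    exact hover
  have hχ₁B : ∀ (b : B) (l : L), (χ₁ : L → ℂ) (⟨b, hBL b.2⟩ * l) = (μB b : ℂ) * (χ₁ : L → ℂ) l := by
    intro b l
    have h2 : (⟨b, hBL b.2⟩ : L) ∈ B₁ := b.2
    have h3 := Cfsg.Agent.Lib.CharExtra.restrict_eq_of_over χ₁ B₁ hB₁ ⟨(θ₀ : B → ℂ) ∘ ι, isIrr_comp_equiv ι θ₀.2⟩ hover₁ ⟨_, h2⟩
    have h4 := Cfsg.Agent.Lib.CharExtra.irr_mul_central χ₁ (hB₁ h2) l
    have h5 : (⟨b, hBL b.2⟩ : L) * l = l * ⟨b, hBL b.2⟩ := Subtype.ext (hZc _ b.2.1 _)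
    have h6 : (χ₁ : L → ℂ) 1 ≠ 0 := map_one_ne_zero_of_irr χ₁.2
    rw [h5, h4]
    have h7 : (χ₁ : L → ℂ) ⟨b, hBL b.2⟩ = (χ₁ : L → ℂ) 1 * (μB b : ℂ) := h3
    rw [h7]
    field_simp
  -- the product
  have hAcen : ∀ z ∈ A, ∀ x : Γ, z * x = x * z := fun z hz x => hZc z hz.1 x
  let ε : A × L →* G :=
    { toFun := fun p => ⟨(p.1 : Γ) * p.2, G.mul_mem (hZG p.1.2.1) (hLG p.2.2)⟩
      map_one' := Subtype.ext (by simp)
      map_mul' := fun p q => Subtype.ext (by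
        show ((p.1 : Γ) * q.1) * ((p.2 : Γ) * q.2) = ((p.1 : Γ) * p.2) * ((q.1 : Γ) * q.2)
        rw [mul_assoc (p.1 : Γ) (p.2 : Γ), ← mul_assoc (p.2 : Γ) (q.1 : Γ), ← hAcen _ q.1.2 (p.2 : Γ)]
        group) }
  have hεinj : Function.Injective ε := by
    rintro ⟨z, l⟩ ⟨z', l'⟩ h2
    have h3 : (z : Γ) * l = (z' : Γ) * l' := congrArg Subtype.val h2
    have h4 : (z' : Γ)⁻¹ * z = l' * (l : Γ)⁻¹ := by
      rw [inv_mul_eq_iff_eq_mul, ← mul_assoc, ← h3]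
      group
    have h5 : (z' : Γ)⁻¹ * z = 1 := hAL _ (A.mul_mem (A.inv_mem z'.2) z.2) (by
      rw [h4]
      exact L.mul_mem l'.2 (L.inv_mem l.2))
    have h6 : (z' : Γ) = z := inv_mul_eq_one.mp h5
    have h7 : (l : Γ) = l' := by
      rw [← h6] at h3
      exact mul_left_cancel h3
    have h8 : z = z' := Subtype.ext h6.symm
    have h9 : l = l' := Subtype.ext h7
    rw [h8, h9]
  have hεsurj : Function.Surjective ε := by
    rintro ⟨g, hg⟩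
    obtain ⟨z, hz, l, hl, rfl⟩ := hdec g hg
    exact ⟨(⟨z, hz⟩, ⟨l, hl⟩), rfl⟩
  let e : A × L ≃* G := MulEquiv.ofBijective ε ⟨hεinj, hεsurj⟩
  let μA : A →* ℂˣ := μ.comp (Subgroup.inclusion hAZ')
  have hF : IsIrrCharacter (A × L) (fun x => (μA x.1 : ℂ) * (χ₁ : L → ℂ) x.2) :=
    isIrr_prod (isIrrCharacter_of_hom μA) χ₁.2
  let β : IrrCharacter G := ⟨(fun x : A × L => (μA x.1 : ℂ) * (χ₁ : L → ℂ) x.2) ∘ e.symm, isIrr_comp_equiv e.symm hF⟩
  have hβ : ∀ (z : A) (l : L), (β : G → ℂ) (ε (z, l)) = (μA z : ℂ) * (χ₁ : L → ℂ) l := by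
    intro z l
    have h2 : e.symm (ε (z, l)) = (z, l) := e.symm_apply_apply (z, l)
    show (fun x : A × L => (μA x.1 : ℂ) * (χ₁ : L → ℂ) x.2) (e.symm (ε (z, l))) = _
    rw [h2]
  refine ⟨β, ?_, ?_⟩
  · intro x g
    obtain ⟨⟨z, l⟩, rfl⟩ := hεsurj g
    have h2 : (⟨x * (ε (z, l) : G) * x⁻¹, hG.conj_mem _ (ε (z, l)).2 x⟩ : G) =
        ε (z, ⟨x * l * x⁻¹, hLn.conj_mem l l.2 x⟩) := by
      apply Subtype.ext
      show x * ((z : Γ) * l) * x⁻¹ = (z : Γ) * (x * l * x⁻¹)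
      rw [hAcen _ z.2 (l : Γ)]
      have h3 := hAcen _ z.2 x
      calc x * ((l : Γ) * z) * x⁻¹ = (x * l) * (z * x⁻¹) := by group
        _ = (x * l) * (x⁻¹ * z) := by rw [hAcen _ z.2 x⁻¹]
        _ = (z : Γ) * (x * l * x⁻¹) := by
          rw [hAcen _ z.2 (x * l * x⁻¹)]
          group
    rw [h2, hβ, hβ, hχ₁Γ]
  · intro z₀ g
    obtain ⟨⟨z, l⟩, rfl⟩ := hεsurj g
    -- splitting `z₀`
    have hbez : (1 : ℤ) = a * Nat.gcdA a b + b * Nat.gcdB a b := by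
      have h2 := Nat.gcd_eq_gcd_ab a b
      rw [habc] at h2
      exact_mod_cast h2
    let zb : Γ := (z₀ : Γ) ^ ((a : ℤ) * Nat.gcdA a b)
    let za : Γ := (z₀ : Γ) ^ ((b : ℤ) * Nat.gcdB a b)
    have hz₀ : (z₀ : Γ) = za * zb := by
      show (z₀ : Γ) = (z₀ : Γ) ^ ((b : ℤ) * Nat.gcdB a b) * (z₀ : Γ) ^ ((a : ℤ) * Nat.gcdA a b)
      rw [← zpow_add, add_comm, ← hbez, zpow_one]
    have hord : ((z₀ : Γ)) ^ (((a : ℤ) * (b : ℤ))) = 1 := by
      have h2 := hZcard _ z₀.2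
      exact_mod_cast h2
    have hzbm : zb ∈ B := by
      refine ⟨Z.zpow_mem z₀.2 _, ?_⟩
      show ((z₀ : Γ) ^ ((a : ℤ) * Nat.gcdA a b)) ^ b = 1
      rw [← zpow_natCast, ← zpow_mul]
      have h3 : (a : ℤ) * Nat.gcdA a b * b = ((a : ℤ) * b) * Nat.gcdA a b := by ring
      rw [h3, zpow_mul, hord, one_zpow]
    have hzam : za ∈ A := by
      refine ⟨Z.zpow_mem z₀.2 _, ?_⟩
      show ((z₀ : Γ) ^ ((b : ℤ) * Nat.gcdB a b)) ^ a = 1
      rw [← zpow_natCast, ← zpow_mul]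
      have h3 : (b : ℤ) * Nat.gcdB a b * a = ((a : ℤ) * b) * Nat.gcdB a b := by ring
      rw [h3, zpow_mul, hord, one_zpow]
    have hz₀' : z₀ = (⟨za, hzam.1⟩ : Z) * ⟨zb, hzbm.1⟩ := Subtype.ext hz₀
    have h2 : (⟨z₀, hZG z₀.2⟩ : G) * ε (z, l) = ε (⟨za, hzam⟩ * z, ⟨zb, hBL hzbm⟩ * l) := by
      apply Subtype.ext
      show (z₀ : Γ) * ((z : Γ) * l) = (za * z) * (zb * l)
      rw [hz₀, mul_assoc za z, ← mul_assoc (z : Γ) zb, ← hZc zb hzbm.1 (z : Γ)]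
      group
    rw [h2, hβ, hβ]
    have h3 := hχ₁B ⟨zb, hzbm⟩ l
    have h4 : (⟨(⟨zb, hzbm⟩ : B), hBL (⟨zb, hzbm⟩ : B).2⟩ : L) = ⟨zb, hBL hzbm⟩ := rfl
    rw [h4] at h3
    rw [h3, map_mul]
    have h5 : (μ z₀ : ℂ) = (μA ⟨za, hzam⟩ : ℂ) * (μB ⟨zb, hzbm⟩ : ℂ) := by
      rw [hz₀', map_mul, Units.val_mul]
      rfl
    rw [h5, Units.val_mul]
    ring

end Central

end Cfsg.Agent.Lib.Coprime
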