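import Mathlib
import Cfsg.Agent.Lib.Coprime.CopCentral
import Cfsg.Agent.Lib.Coprime.CopDeg
import Cfsg.Agent.Lib.Char.ProjExt

/-!
# A finite central cover on which an invariant character extends
-/

set_option autoImplicit false
set_option linter.style.haveILetI false
set_option linter.unusedSectionVars false
set_option linter.unusedSimpArgs false
set_option linter.unnecessarySimpa false

open scoped ComplexConjugate Pointwise
open Cfsg Cfsg.Agent.Lib.Char

namespace Cfsg.Agent.Lib.Coprime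

universe u

section Cover

variable {Γ : Type u} [Group Γ] (N : Subgroup Γ) [hN : N.Normal] {d : ℕ} (X : Representation ℂ N (Fin d → ℂ))

/-- The group of pairs `(g, A)` with `A` intertwining `X` and its `g`-conjugate, and of determinant of finite order. -/
noncomputable def coverSub [Finite Γ] : Subgroup (Γ × ((Fin d → ℂ) ≃ₗ[ℂ] (Fin d → ℂ))) where
  carrier := {p | (∀ (n : N) (u : Fin d → ℂ), p.2 (X n u) = X (nconj N p.1 n) (p.2 u)) ∧
    (LinearEquiv.det p.2) ^ (Nat.card N) = 1}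
  one_mem' := by
    refine ⟨fun n u => ?_, by simp⟩
    have h1 : nconj N (1 : Γ) n = n := Subtype.ext (by simp [nconj])
    show X n u = X (nconj N 1 n) u
    rw [h1]
  mul_mem' := by
    rintro ⟨g, A⟩ ⟨h, B⟩ ⟨hA, hA'⟩ ⟨hB, hB'⟩
    refine ⟨fun n u => ?_, ?_⟩
    · show A (B (X n u)) = X (nconj N (g * h) n) (A (B u))
      rw [hB, hA]
      congr 2
      apply Subtype.ext
      simp [nconj]
      group
    · show LinearEquiv.det (A * B) ^ _ = 1
      rw [map_mul, mul_pow, hA', hB', one_mul]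
  inv_mem' := by
    rintro ⟨g, A⟩ ⟨hA, hA'⟩
    refine ⟨fun n u => ?_, ?_⟩
    · show A⁻¹ (X n u) = X (nconj N g⁻¹ n) (A⁻¹ u)
      apply A.injective
      have h1 : A (A⁻¹ (X n u)) = X n u := A.apply_symm_apply _
      have h2 : A (A⁻¹ u) = u := A.apply_symm_apply _
      rw [h1, hA, h2]
      congr 2
      apply Subtype.ext
      simp [nconj]
      group
    · show LinearEquiv.det (A⁻¹) ^ _ = 1
      rw [map_inv, inv_pow, hA', inv_one]

theorem det_end_smul_pow {c : ℂ} {A : (Fin d → ℂ) ≃ₗ[ℂ] (Fin d → ℂ)} (h : ∀ u, A u = c • u) :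
    ((LinearEquiv.det A : ℂˣ) : ℂ) = c ^ d := by
  have h1 : (A : (Fin d → ℂ) →ₗ[ℂ] (Fin d → ℂ)) = c • LinearMap.id := by
    ext u i
    simp [h]
  rw [LinearEquiv.coe_det, h1, LinearMap.det_smul]
  simp

/-- **Existence of a central cover on which the representation extends.** -/
theorem exists_cover [Finite Γ] (hX : X.IsIrreducible) (hinv : ∀ (g : Γ) (n : N), X.character (nconj N g n) = X.character n) :
    ∃ (T : Type u) (_ : Group T) (_ : Finite T) (π : T →* Γ) (ω : Representation ℂ T (Fin d → ℂ)) (s : N →* T),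
      Function.Surjective π ∧ (∀ n, π (s n) = n) ∧ (∀ n, ω (s n) = X n) ∧ s.range.Normal ∧
      ∀ z ∈ π.ker, (∀ x, z * x = x * z) ∧ ∃ c : ℂ, ω z = c • 1 := by
  classical
  have hnt : Nontrivial (Fin d → ℂ) := nontrivial_of_irr hX
  have hd : 0 < d := by
    have := finrank_pos_of_irr hX
    simpa using this
  let T := coverSub N X
  let π : T →* Γ := (MonoidHom.fst _ _).comp T.subtype
  let F : T →* ((Fin d → ℂ) ≃ₗ[ℂ] (Fin d → ℂ)) := (MonoidHom.snd _ _).comp T.subtype
  have hπ : ∀ y : T, π y = y.1.1 := fun _ => rfl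
  have hF : ∀ y : T, F y = y.1.2 := fun _ => rfl
  let ω : Representation ℂ T (Fin d → ℂ) := repOfEquivHom F
  have hω : ∀ (y : T) u, ω y u = y.1.2 u := fun _ _ => rfl
  -- the section
  have hs : ∀ n : N, ((n : Γ), repEquiv X n) ∈ T := by
    intro n
    refine ⟨fun n' u => ?_, ?_⟩
    · show X n (X n' u) = X (nconj N n n') (X n u)
      rw [← Module.End.mul_apply, ← Module.End.mul_apply, ← map_mul, ← map_mul]
      congr 2
      apply Subtype.ext
      simp [nconj]
    · show LinearEquiv.det (repEquiv X n) ^ _ = 1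
      rw [← map_pow, ← map_pow, pow_card_eq_one', map_one, map_one]
  let s : N →* T :=
    { toFun := fun n => ⟨_, hs n⟩
      map_one' := by
        apply Subtype.ext
        show (((1 : N) : Γ), repEquiv X 1) = 1
        rw [map_one]
        rfl
      map_mul' := fun a b => by
        apply Subtype.ext
        show (((a * b : N) : Γ), repEquiv X (a * b)) = _
        rw [map_mul]
        rfl }
  have hπs : ∀ n, π (s n) = n := fun _ => rfl
  have hωs : ∀ n, ω (s n) = X n := by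
    intro n
    ext u
    rfl
  -- surjectivity
  have hsurj : Function.Surjective π := by
    intro g
    obtain ⟨e, he⟩ := exists_conj_intertwiner N X hinv g
    have hdet : ((LinearEquiv.det e : ℂˣ) : ℂ) ≠ 0 := Units.ne_zero _
    obtain ⟨c, hc⟩ := IsAlgClosed.exists_pow_nat_eq ((((LinearEquiv.det e : ℂˣ) : ℂ))⁻¹) hd
    have hc0 : c ≠ 0 := by
      intro h
      rw [h, zero_pow hd.ne'] at hc
      exact inv_ne_zero hdet hc.symm
    let A : (Fin d → ℂ) ≃ₗ[ℂ] (Fin d → ℂ) := e.trans (LinearEquiv.smulOfNeZero ℂ (Fin d → ℂ) c hc0)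
    have hA : ∀ u, A u = c • e u := fun _ => rfl
    have hdetA : LinearEquiv.det A = 1 := by
      apply Units.ext
      rw [LinearEquiv.coe_det]
      have h1 : (A : (Fin d → ℂ) →ₗ[ℂ] (Fin d → ℂ)) = c • (e : (Fin d → ℂ) →ₗ[ℂ] (Fin d → ℂ)) := by
        ext u i
        simp [hA]
      rw [h1, LinearMap.det_smul, ← LinearEquiv.coe_det]
      simp only [Module.finrank_fin_fun, hc]
      simpa using inv_mul_cancel₀ hdet
    refine ⟨⟨(g, A), fun n u => ?_, ?_⟩, rfl⟩
    · show A (X n u) = X (nconj N g n) (A u)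
      rw [hA, hA, he, map_smul]
    · show LinearEquiv.det A ^ _ = 1
      rw [hdetA, one_pow]
  -- the kernel
  have hker : ∀ z ∈ π.ker, ∃ c : ℂ, (∀ u, z.1.2 u = c • u) ∧ c ^ (d * Nat.card N) = 1 := by
    intro z hz
    have h1 : z.1.1 = 1 := hz
    have hcomm : ∀ (n : N) u, (z.1.2 : (Fin d → ℂ) →ₗ[ℂ] (Fin d → ℂ)) (X n u) = X n ((z.1.2 : (Fin d → ℂ) →ₗ[ℂ] (Fin d → ℂ)) u) := by
      intro n u
      have h2 := z.2.1 n u
      rw [h1] at h2
      have h3 : nconj N (1 : Γ) n = n := Subtype.ext (by simp [nconj])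
      rw [h3] at h2
      exact h2
    obtain ⟨c, hc⟩ := schur_scalar X hX (z.1.2 : (Fin d → ℂ) →ₗ[ℂ] (Fin d → ℂ)) hcomm
    have hc' : ∀ u, z.1.2 u = c • u := by
      intro u
      have h2 := congrArg (fun T : Module.End ℂ (Fin d → ℂ) => T u) hc
      simpa using h2
    refine ⟨c, hc', ?_⟩
    have h4 := det_end_smul_pow hc'
    have h5 : (LinearEquiv.det z.1.2) ^ (Nat.card N) = 1 := z.2.2
    have h6 := congrArg (fun x : ℂˣ => (x : ℂ)) h5
    simp only [Units.val_pow_eq_pow_val, Units.val_one] at h6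
    rw [h4, ← pow_mul] at h6
    exact h6
  have hcentral : ∀ z ∈ π.ker, ∀ x, z * x = x * z := by
    intro z hz x
    obtain ⟨c, hc, -⟩ := hker z hz
    have h1 : z.1.1 = 1 := hz
    apply Subtype.ext
    apply Prod.ext
    · show z.1.1 * x.1.1 = x.1.1 * z.1.1
      rw [h1, one_mul, mul_one]
    · ext u i
      show (z.1.2 (x.1.2 u)) i = (x.1.2 (z.1.2 u)) i
      rw [hc, hc, map_smul]
  -- finiteness
  haveI hfinker : Finite π.ker := by
    have hpos : 0 < d * Nat.card N := Nat.mul_pos hd Nat.card_pos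
    haveI : NeZero (d * Nat.card N) := ⟨hpos.ne'⟩
    choose! c hc hc' using hker
    let φ : π.ker → rootsOfUnity (d * Nat.card N) ℂ := fun z =>
      ⟨Units.mk0 (c z.1) (by
        intro h0
        have h2 := hc' z.1 z.2
        rw [h0, zero_pow hpos.ne'] at h2
        exact zero_ne_one h2), by
        rw [mem_rootsOfUnity]
        apply Units.ext
        simpa using hc' z.1 z.2⟩
    refine Finite.of_injective φ ?_
    intro x y hxy
    have h1 : c x.1 = c y.1 := congrArg (fun w : rootsOfUnity (d * Nat.card N) ℂ => ((w : ℂˣ) : ℂ)) hxy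
    have h2 : x.1.1.1 = 1 := x.2
    have h3 : y.1.1.1 = 1 := y.2
    apply Subtype.ext
    apply Subtype.ext
    apply Prod.ext
    · rw [h2, h3]
    · ext u i
      rw [hc x.1 x.2, hc y.1 y.2, h1]
  haveI hfinT : Finite T := π.finite_iff_finite_ker_range.mpr ⟨hfinker, inferInstance⟩
  refine ⟨T, inferInstance, hfinT, π, ω, s, hsurj, hπs, hωs, ?_, fun z hz => ⟨hcentral z hz, ?_⟩⟩
  · refine ⟨?_⟩
    rintro _ ⟨n, rfl⟩ y
    refine ⟨nconj N (π y) n, ?_⟩
    apply Subtype.ext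
    apply Prod.ext
    · rfl
    · ext u i
      show X (nconj N (π y) n) u i = (y.1.2 (X n (y.1.2⁻¹ u))) i
      rw [y.2.1 n]
      have h2 : y.1.2 (y.1.2⁻¹ u) = u := y.1.2.apply_symm_apply u
      rw [h2]
      rfl
  · obtain ⟨c, hc, -⟩ := hker z hz
    refine ⟨c, LinearMap.ext fun u => ?_⟩
    show z.1.2 u = (c • (1 : Module.End ℂ (Fin d → ℂ))) u
    rw [hc]
    simp

end Cover

section Descend

variable {A B : Type u} [Group A] [Group B] [Finite A]

/-- An irreducible character trivial on the kernel of a surjection descends. -/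
theorem exists_descend (f : A →* B) (hf : Function.Surjective f) (χ : IrrCharacter A) (h : ∀ a, f a = 1 → (χ : A → ℂ) a = (χ : A → ℂ) 1) :
    ∃ ψ : IrrCharacter B, ∀ a, (ψ : B → ℂ) (f a) = (χ : A → ℂ) a := by
  obtain ⟨ψ, hψ⟩ := Cfsg.Agent.Lib.Degree.exists_inflate f.ker (χ := χ) (fun n hn => h n hn)
  let e : A ⧸ f.ker ≃* B := QuotientGroup.quotientKerEquivOfSurjective f hf
  refine ⟨⟨(ψ : A ⧸ f.ker → ℂ) ∘ e.symm, isIrr_comp_equiv e.symm ψ.2⟩, fun a => ?_⟩
  have h1 : e.symm (f a) = (a : A ⧸ f.ker) := by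
    rw [MulEquiv.symm_apply_eq]
    rfl
  show (ψ : A ⧸ f.ker → ℂ) (e.symm (f a)) = _
  rw [h1, ← hψ]
  rfl

end Descend

section Main

/-- The case of a solvable top factor. -/
theorem above_cover {Γ : Type u} [Group Γ] [Finite Γ] (G N : Subgroup Γ) [hG : G.Normal] [hN : N.Normal] [Fintype N]
    (hNG : N ≤ G) (hcop : G.index.Coprime (N.relIndex G)) (hsol : Group.IsSolvable (Γ ⧸ G)) (θ : IrrCharacter N)
    (hinv : ∀ (x : Γ) (n : N), (θ : N → ℂ) ⟨x * n * x⁻¹, hN.conj_mem n n.2 x⟩ = (θ : N → ℂ) n) :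
    ∃ χ : IrrCharacter G, classInner (fun n : N => (χ : G → ℂ) ⟨n, hNG n.2⟩) (θ : N → ℂ) ≠ 0 ∧
      ∀ (x : Γ) (g : G), (χ : G → ℂ) ⟨x * g * x⁻¹, hG.conj_mem g g.2 x⟩ = (χ : G → ℂ) g := by
  classical
  obtain ⟨d, X, hX, hXc⟩ := θ.2
  have hinvX : ∀ (g : Γ) (n : N), X.character (nconj N g n) = X.character n := by
    intro g n
    rw [hXc]
    exact hinv g n
  obtain ⟨T, iT, fT, π, ω, s, hπ, hπs, hωs, hsn, hz⟩ := exists_cover N X hX hinvX
  have hnt : Nontrivial (Fin d → ℂ) := nontrivial_of_irr hX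
  let Nt : Subgroup T := s.range
  haveI : Nt.Normal := hsn
  let ρ : T →* T ⧸ Nt := QuotientGroup.mk' Nt
  have hρs : ∀ n, ρ (s n) = 1 := fun n => (QuotientGroup.eq_one_iff _).mpr ⟨n, rfl⟩
  let Gt : Subgroup T := G.comap π
  let Zt : Subgroup T := π.ker
  let j : Zt →* T ⧸ Nt := ρ.comp Zt.subtype
  have hj : Function.Injective j := by
    rw [injective_iff_map_eq_one]
    intro z hz'
    have h1 : (z : T) ∈ Nt := (QuotientGroup.eq_one_iff _).mp hz'
    obtain ⟨n, hn⟩ := h1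
    have h2 : π z = 1 := z.2
    have h3 : (n : Γ) = 1 := by rw [← hπs n, hn, h2]
    have h4 : n = 1 := Subtype.ext h3
    apply Subtype.ext
    rw [← hn, h4, map_one]
    rfl
  let Zh : Subgroup (T ⧸ Nt) := j.range
  let Gh : Subgroup (T ⧸ Nt) := Gt.map ρ
  haveI hGtn : Gt.Normal := Subgroup.Normal.comap hG π
  haveI hGhn : Gh.Normal := Subgroup.Normal.map hGtn ρ (QuotientGroup.mk'_surjective _)
  have hZtG : ∀ z ∈ Zt, z ∈ Gt := by
    intro z hz'
    show π z ∈ G
    rw [show π z = 1 from hz']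
    exact G.one_mem
  have hZG : Zh ≤ Gh := by
    rintro _ ⟨z, rfl⟩
    exact ⟨z, hZtG z z.2, rfl⟩
  have hZc : ∀ z ∈ Zh, ∀ x, z * x = x * z := by
    rintro _ ⟨z, rfl⟩ x
    obtain ⟨t, rfl⟩ := QuotientGroup.mk_surjective x
    show ρ z * ρ t = ρ t * ρ z
    rw [← map_mul, ← map_mul, (hz z z.2).1 t]
  have hm : ∀ x : T ⧸ Nt, x ^ G.index ∈ Gh := by
    intro x
    obtain ⟨t, rfl⟩ := QuotientGroup.mk_surjective x
    refine ⟨t ^ G.index, ?_, rfl⟩
    show π (t ^ G.index) ∈ G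
    rw [map_pow]
    exact G.pow_index_mem _
  have hf : ∀ g ∈ Gh, g ^ (N.relIndex G) ∈ Zh := by
    rintro _ ⟨t, ht, rfl⟩
    have h1 : (π t) ^ (N.relIndex G) ∈ N := Subgroup.pow_relIndex_mem N ht
    let y : T := t ^ (N.relIndex G) * (s ⟨_, h1⟩)⁻¹
    have hy : y ∈ Zt := by
      show π y = 1
      simp only [y, map_mul, map_inv, map_pow, hπs]
      simp
    refine ⟨⟨y, hy⟩, ?_⟩
    show ρ y = (ρ t) ^ (N.relIndex G)
    simp only [y, map_mul, map_inv, map_pow, hρs]
    simp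
  have hsol' : Group.IsSolvable ((T ⧸ Nt) ⧸ Gh) := by
    have hk0 : Nt ≤ ((QuotientGroup.mk' G).comp π).ker := by
      rintro _ ⟨n, rfl⟩
      show ((π (s n) : Γ) : Γ ⧸ G) = 1
      rw [hπs]
      exact (QuotientGroup.eq_one_iff _).mpr (hNG n.2)
    let κ₀ : T ⧸ Nt →* Γ ⧸ G := QuotientGroup.lift Nt ((QuotientGroup.mk' G).comp π) hk0
    have hk1 : Gh ≤ κ₀.ker := by
      rintro _ ⟨t, ht, rfl⟩
      exact (QuotientGroup.eq_one_iff (π t)).mpr ht
    let κ : (T ⧸ Nt) ⧸ Gh →* Γ ⧸ G := QuotientGroup.lift Gh κ₀ hk1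
    refine solvable_of_solvable_injective (f := κ) ?_
    rw [injective_iff_map_eq_one]
    intro q hq
    obtain ⟨w, rfl⟩ := QuotientGroup.mk_surjective q
    obtain ⟨t, rfl⟩ := QuotientGroup.mk_surjective w
    have h1 : π t ∈ G := (QuotientGroup.eq_one_iff _).mp hq
    exact (QuotientGroup.eq_one_iff _).mpr ⟨t, h1, rfl⟩
  -- the central character
  choose c hc using fun z : Zt => (hz z z.2).2
  obtain ⟨v, hv⟩ := exists_ne (0 : Fin d → ℂ)
  have hcinj : ∀ a b : ℂ, a • (1 : Module.End ℂ (Fin d → ℂ)) = b • (1 : Module.End ℂ (Fin d → ℂ)) → a = b := by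
    intro a b h
    have h1 := congrArg (fun T : Module.End ℂ (Fin d → ℂ) => T v) h
    simp only [LinearMap.smul_apply, Module.End.one_apply] at h1
    exact smul_left_injective ℂ hv h1
  have hcmul : ∀ a b, c (a * b) = c a * c b := by
    intro a b
    apply hcinj
    rw [← hc, mul_smul]
    have h1 : ω ((a * b : Zt) : T) = ω a * ω b := map_mul ω _ _
    rw [h1, hc, hc]
    ext u i
    simp
    ring
  have hcone : c 1 = 1 := by
    apply hcinj
    rw [← hc, one_smul]
    exact map_one ω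
  let lam₀ : Zt →* ℂ := { toFun := c, map_one' := hcone, map_mul' := hcmul }
  let lam : Zt →* ℂˣ := lam₀.toHomUnits
  let eZ : Zt ≃* Zh := MonoidHom.ofInjective hj
  let μ : Zh →* ℂˣ := (invMonoidHom : ℂˣ →* ℂˣ).comp (lam.comp eZ.symm.toMonoidHom)
  have hμ : ∀ z : Zt, (μ (eZ z) : ℂ) * c z = 1 := by
    intro z
    have h1 : μ (eZ z) = (lam z)⁻¹ := by
      show (lam (eZ.symm (eZ z)))⁻¹ = _
      rw [eZ.symm_apply_apply]
    rw [h1]
    have h2 : ((lam z : ℂˣ) : ℂ) = c z := rfl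
    rw [← h2]
    simp
  obtain ⟨β, hβinv, hβz⟩ := central_inv Gh Zh hZG hZc G.index (N.relIndex G) hcop hm hf hsol' μ
  -- pull back
  letI : Fintype Gt := Fintype.ofFinite _
  let r : Gt →* Gh := ρ.subgroupMap Gt
  have hr : Function.Surjective r := ρ.subgroupMap_surjective Gt
  have hrval : ∀ y : Gt, ((r y : Gh) : T ⧸ Nt) = ρ y := fun _ => rfl
  let βt : IrrCharacter Gt := ⟨(β : Gh → ℂ) ∘ r, isIrr_comp_surjective r hr β.2⟩
  let ωt : Gt → ℂ := fun y => ω.character y
  have hsG : ∀ n : N, s n ∈ Gt := by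
    intro n
    show π (s n) ∈ G
    rw [hπs]
    exact hNG n.2
  have hωt : IsIrrCharacter Gt ωt := by
    refine ⟨d, ω.comp Gt.subtype, ?_, rfl⟩
    rw [isIrreducible_iff] at hX ⊢
    refine ⟨hX.1, fun W hW => hX.2 W fun n w hw => ?_⟩
    have h1 := hW ⟨s n, hsG n⟩ w hw
    have h2 : (ω.comp Gt.subtype) ⟨s n, hsG n⟩ = X n := hωs n
    rw [h2] at h1
    exact h1
  let N₁ : Subgroup Gt := Nt.subgroupOf Gt
  letI : Fintype N₁ := Fintype.ofFinite _
  let σf : N →* N₁ :=
    { toFun := fun n => ⟨⟨s n, hsG n⟩, ⟨n, rfl⟩⟩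
      map_one' := by
        apply Subtype.ext
        apply Subtype.ext
        exact map_one s
      map_mul' := fun a b => by
        apply Subtype.ext
        apply Subtype.ext
        exact map_mul s a b }
  have hσinj : Function.Injective σf := by
    intro a b h
    have h1 : s a = s b := congrArg (fun y : N₁ => ((y : Gt) : T)) h
    have h2 := congrArg π h1
    rw [hπs, hπs] at h2
    exact Subtype.ext h2
  have hσsurj : Function.Surjective σf := by
    rintro ⟨⟨t, ht⟩, ⟨n, hn⟩⟩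
    refine ⟨n, ?_⟩
    apply Subtype.ext
    apply Subtype.ext
    exact hn
  let σ : N ≃* N₁ := MulEquiv.ofBijective σf ⟨hσinj, hσsurj⟩
  let θ₁ : N₁ → ℂ := fun y => ω.character ((y : Gt) : T)
  have hθ₁σ : ∀ n : N, ω.character (s n) = (θ : N → ℂ) n := by
    intro n
    rw [← hXc]
    simp only [Representation.character, hωs]
  have hθ₁ : IsIrrCharacter N₁ θ₁ := by
    have h1 := isIrr_comp_equiv σ.symm θ.2
    have h2 : (θ : N → ℂ) ∘ σ.symm = θ₁ := by
      funext y
      obtain ⟨n, rfl⟩ := σ.surjective y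
      simp only [Function.comp, MulEquiv.symm_apply_apply]
      exact (hθ₁σ n).symm
    rwa [h2] at h1
  have hgal := gallagher_ext N₁ hθ₁ hωt (fun n => rfl)
  have hβt1 : ∀ y ∈ N₁, (βt : Gt → ℂ) y = (βt : Gt → ℂ) 1 := by
    intro y hy
    have h1 : r y = 1 := by
      apply Subtype.ext
      exact (QuotientGroup.eq_one_iff _).mpr hy
    show (β : Gh → ℂ) (r y) = (β : Gh → ℂ) (r 1)
    rw [h1, map_one]
  have hχt := (hgal.mapsTo ⟨βt.2, hβt1⟩).1
  let χt : IrrCharacter Gt := ⟨_, hχt⟩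
  have hχtval : ∀ y : Gt, (χt : Gt → ℂ) y = (β : Gh → ℂ) (r y) * ω.character y := fun _ => rfl
  let πG : Gt →* G := (π.comp Gt.subtype).codRestrict G (fun y => y.2)
  have hπG : Function.Surjective πG := by
    rintro ⟨g, hg⟩
    obtain ⟨t, ht⟩ := hπ g
    have h1 : t ∈ Gt := by
      show π t ∈ G
      rw [ht]
      exact hg
    exact ⟨⟨t, h1⟩, Subtype.ext ht⟩
  have hker : ∀ a, πG a = 1 → (χt : Gt → ℂ) a = (χt : Gt → ℂ) 1 := by
    intro a ha
    have ha' : ((a : Gt) : T) ∈ Zt := congrArg Subtype.val ha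
    let z : Zt := ⟨a, ha'⟩
    have h1 : r a = ⟨eZ z, hZG (eZ z).2⟩ * 1 := by
      rw [mul_one]
      rfl
    have h2 := hβz (eZ z) 1
    have h3 : ω.character ((a : Gt) : T) = c z * ω.character 1 := by
      have h4 : ω ((a : Gt) : T) = c z • 1 := hc z
      simp only [Representation.character, h4, map_one, map_smul, smul_eq_mul]
    rw [hχtval, hχtval, h1, h2, map_one]
    show (μ (eZ z) : ℂ) * (β : Gh → ℂ) 1 * ω.character ((a : Gt) : T) = (β : Gh → ℂ) 1 * ω.character 1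
    rw [h3]
    calc (μ (eZ z) : ℂ) * (β : Gh → ℂ) 1 * (c z * ω.character 1)
        = ((μ (eZ z) : ℂ) * c z) * ((β : Gh → ℂ) 1 * ω.character 1) := by ring
      _ = (β : Gh → ℂ) 1 * ω.character 1 := by rw [hμ, one_mul]
  obtain ⟨χ, hχ⟩ := exists_descend πG hπG χt hker
  refine ⟨χ, ?_, ?_⟩
  · have h1 : (fun n : N => (χ : G → ℂ) ⟨n, hNG n.2⟩) = ((β : Gh → ℂ) 1) • (θ : N → ℂ) := by
      funext n
      have h2 : (⟨n, hNG n.2⟩ : G) = πG ⟨s n, hsG n⟩ := Subtype.ext (hπs n).symm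
      rw [h2, hχ, hχtval]
      have h3 : r ⟨s n, hsG n⟩ = 1 := by
        apply Subtype.ext
        exact hρs n
      rw [h3]
      show (β : Gh → ℂ) 1 * ω.character (s n) = _
      rw [hθ₁σ]
      rfl
    rw [h1, classInner_smul_left, classInner_irr_self θ.2, mul_one]
    exact map_one_ne_zero_of_irr β.2
  · intro x g
    obtain ⟨t, rfl⟩ := hπ x
    obtain ⟨y, rfl⟩ := hπG g
    have h1 : (t : T) * y * t⁻¹ ∈ Gt := hGtn.conj_mem y y.2 t
    have h2 : (⟨π t * ((πG y : G) : Γ) * (π t)⁻¹, hG.conj_mem _ (πG y).2 (π t)⟩ : G) = πG ⟨_, h1⟩ := by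
      apply Subtype.ext
      show _ = π (t * y * t⁻¹)
      simp
      rfl
    rw [h2, hχ, hχ, hχtval, hχtval]
    congr 1
    · have h3 := hβinv (ρ t) (r y)
      rw [← h3]
      refine congrArg _ (Subtype.ext ?_)
      show ρ (t * y * t⁻¹) = ρ t * ρ y * (ρ t)⁻¹
      simp
    · show ω.character (t * y * t⁻¹) = ω.character y
      exact IsCharacter.isClassFunction (isCharacter_character ω) _ _

end Main

end Cfsg.Agent.Lib.Coprime
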