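import Mathlib
import Cfsg.Agent.Lib.Coprime.GlauberCyclic
import Cfsg.Agent.Lib.Coprime.GlauberP
import Cfsg.Agent.Lib.Coprime.GlauberStep
import Cfsg.Agent.Lib.Coprime.CopAbove
import Cfsg.Agent.Lib.Char.Clifford2

/-!
# A cyclic Hall complement acting with a constant centralizer

`L = K W₁` with `K` normal, `W₁` a cyclic complement of coprime order, and `C_K(x) = W₂` for every
non-identity `x ∈ W₁` (`W₂` abelian).
-/

set_option autoImplicit false
set_option linter.style.haveILetI false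
set_option linter.unusedSectionVars false
set_option linter.unusedSimpArgs false
set_option linter.unnecessarySimpa false

open scoped ComplexConjugate
open Cfsg Cfsg.Agent.Lib.Char Cfsg.Agent.Lib.Coprime

namespace Cfsg.Agent.Lib.Coprime.CycCent

universe u

variable {L : Type u} [Group L] [Fintype L]

/-- The hypotheses. -/
structure Setup (K W₁ W₂ : Subgroup L) : Prop where
  normal : K.Normal
  inf : K ⊓ W₁ = ⊥
  sup : K ⊔ W₁ = ⊤
  ne : W₁ ≠ ⊥
  cyc : IsCyclic W₁
  cop : (Nat.card K).Coprime (Nat.card W₁)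
  comm : ∀ a ∈ W₂, ∀ b ∈ W₂, a * b = b * a
  le : W₂ ≤ K
  cent : ∀ x ∈ W₁, x ≠ 1 → K ⊓ Subgroup.centralizer ({x} : Set L) = W₂

/-- Invariance of a function on `K` under conjugation by `x`. -/
def Fix {K : Subgroup L} (hK : K.Normal) (x : L) (χ : K → ℂ) : Prop :=
  ∀ n : K, χ ⟨x * n * x⁻¹, hK.conj_mem (n : L) n.2 x⟩ = χ n

variable {K W₁ W₂ : Subgroup L}

theorem Setup.exists_gen (S : Setup K W₁ W₂) : ∃ x₀ : L, Subgroup.zpowers x₀ = W₁ := by
  obtain ⟨g, hg⟩ := S.cyc.exists_generator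
  refine ⟨(g : L), le_antisymm (Subgroup.zpowers_le.mpr g.2) fun x hx => ?_⟩
  obtain ⟨k, hk⟩ := hg ⟨x, hx⟩
  refine ⟨k, ?_⟩
  have := congrArg (Subtype.val) hk
  simpa using this

theorem Setup.commute (S : Setup K W₁ W₂) {x c : L} (hx : x ∈ W₁) (hc : c ∈ W₂) : Commute c x := by
  by_cases h1 : x = 1
  · rw [h1]; exact Commute.one_right c
  · have h2 : c ∈ K ⊓ Subgroup.centralizer ({x} : Set L) := by rw [S.cent x hx h1]; exact hc
    have h3 := (Subgroup.mem_centralizer_singleton_iff.mp h2.2)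
    exact h3

theorem Setup.mem_W₂ (S : Setup K W₁ W₂) {x c : L} (hx : x ∈ W₁) (h1 : x ≠ 1) (hc : c ∈ K) (h : c * x = x * c) :
    c ∈ W₂ := by
  rw [← S.cent x hx h1]
  exact ⟨hc, Subgroup.mem_centralizer_singleton_iff.mpr h⟩

theorem Setup.card_conjClasses (S : Setup K W₁ W₂) : Nat.card (ConjClasses W₂) = Nat.card W₂ := by
  refine (Nat.card_congr (Equiv.ofBijective (ConjClasses.mk : W₂ → ConjClasses W₂) ⟨?_, ConjClasses.mk_surjective⟩)).symm
  intro a b h
  obtain ⟨c, hc⟩ := isConj_iff.mp (ConjClasses.mk_eq_mk_iff_isConj.mp h)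
  have hab : (c : L) * (a : L) = a * c := S.comm _ c.2 _ a.2
  apply Subtype.ext
  have h2 := congrArg Subtype.val hc
  simp only [Subgroup.coe_mul, InvMemClass.coe_inv] at h2
  rw [← h2, hab]
  group

/-- The number of irreducible characters of `K` invariant under a non-identity element of `W₁`. -/
theorem Setup.card_fix (S : Setup K W₁ W₂) {x : L} (hx : x ∈ W₁) (h1 : x ≠ 1) :
    Nat.card {χ : IrrCharacter K // Fix S.normal x (χ : K → ℂ)} = Nat.card W₂ := by
  classical
  haveI := S.normal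
  have hzle : Subgroup.zpowers x ≤ W₁ := Subgroup.zpowers_le.mpr hx
  have hnorm : ∀ s ∈ Subgroup.zpowers x, ∀ g ∈ K, s * g * s⁻¹ ∈ K := fun s _ g hg => S.normal.conj_mem g hg s
  let φ := conjAct K (Subgroup.zpowers x) hnorm
  let a₀ : Subgroup.zpowers x := ⟨x, Subgroup.mem_zpowers x⟩
  have hgen : ∀ a : Subgroup.zpowers x, a ∈ Subgroup.zpowers a₀ := by
    rintro ⟨_, k, rfl⟩
    refine ⟨k, ?_⟩
    apply Subtype.ext
    simp [a₀]
  have hc1 : Nat.card (Subgroup.zpowers x) ∣ Nat.card W₁ := Subgroup.card_dvd_of_le hzle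
  have hcop : (Nat.card (Subgroup.zpowers x)).Coprime (Nat.card K) :=
    Nat.Coprime.coprime_dvd_left hc1 S.cop.symm
  have hsol : Group.IsSolvable (Subgroup.zpowers x) ∨ Group.IsSolvable K := by
    left
    haveI : IsMulCommutative (Subgroup.zpowers x) := inferInstance
    infer_instance
  let j : W₂ →* K := Subgroup.inclusion S.le
  have hj : Function.Injective j := Subgroup.inclusion_injective S.le
  have hr : ∀ y, y ∈ j.range ↔ ∀ a, φ a y = y := by
    intro y
    constructor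
    · rintro ⟨c, rfl⟩ ⟨_, k, rfl⟩
      apply Subtype.ext
      show (x ^ k) * (c : L) * (x ^ k)⁻¹ = c
      have h2 : Commute (c : L) x := S.commute hx c.2
      have h3 : Commute (c : L) (x ^ k) := h2.zpow_right k
      rw [h3.symm.eq]
      group
    · intro h
      have h2 := congrArg Subtype.val (h a₀)
      have h3 : x * (y : L) * x⁻¹ = y := h2
      have h4 : (y : L) ∈ W₂ := S.mem_W₂ hx h1 y.2 (by
        rw [eq_comm, ← mul_inv_eq_iff_eq_mul]
        exact h3)
      exact ⟨⟨y, h4⟩, Subtype.ext rfl⟩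
  have hfin : Nat.card (IrrInv φ) = Nat.card W₂ := by
    rw [card_irrInv_eq hgen, card_fixCl hcop hsol hj hr, S.card_conjClasses]
  rw [← hfin]
  refine Nat.card_congr (Equiv.subtypeEquivRight fun χ => ?_)
  constructor
  · intro h
    refine isInv_of_gen hgen fun y => ?_
    exact h y
  · intro h y
    exact h a₀ y

/-- An irreducible character of `K` fixed by a non-identity element of `W₁` is fixed by `W₁`. -/
theorem Setup.fix_all (S : Setup K W₁ W₂) {x : L} (hx : x ∈ W₁) (h1 : x ≠ 1) {χ : IrrCharacter K}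
    (h : Fix S.normal x (χ : K → ℂ)) {y : L} (hy : y ∈ W₁) : Fix S.normal y (χ : K → ℂ) := by
  classical
  obtain ⟨x₀, hx₀⟩ := S.exists_gen
  have hx₀1 : x₀ ≠ 1 := by
    rintro rfl
    apply S.ne
    rw [← hx₀]
    simp
  have hx₀m : x₀ ∈ W₁ := by rw [← hx₀]; exact Subgroup.mem_zpowers x₀
  have hmem : ∀ (z : L) (ψ : K → ℂ), Fix S.normal z ψ ↔ z ∈ inertia S.normal ψ := fun z ψ =>
    (mem_inertia_iff S.normal ψ z).symm
  have hsub : ∀ (ψ : K → ℂ), Fix S.normal x₀ ψ → W₁ ≤ inertia S.normal ψ := by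
    intro ψ hψ
    have h3 : Subgroup.zpowers x₀ ≤ inertia S.normal ψ := Subgroup.zpowers_le.mpr ((hmem _ _).mp hψ)
    rwa [hx₀] at h3
  let A : Set (IrrCharacter K) := {χ | Fix S.normal x₀ (χ : K → ℂ)}
  let B : Set (IrrCharacter K) := {χ | Fix S.normal x (χ : K → ℂ)}
  have hAB : A ⊆ B := fun ψ hψ => (hmem _ _).mpr (hsub _ hψ hx)
  have hcA : A.ncard = Nat.card W₂ := by
    rw [← Nat.card_coe_set_eq]
    exact S.card_fix hx₀m hx₀1
  have hcB : B.ncard = Nat.card W₂ := by
    rw [← Nat.card_coe_set_eq]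
    exact S.card_fix hx h1
  have hEq : A = B := Set.eq_of_subset_of_ncard_le hAB (by rw [hcA, hcB]) (Set.toFinite _)
  have hA : χ ∈ A := by rw [hEq]; exact h
  exact (hmem _ _).mpr (hsub _ hA hy)

theorem Setup.card_fix_all (S : Setup K W₁ W₂) :
    Nat.card {χ : IrrCharacter K // ∀ x ∈ W₁, Fix S.normal x (χ : K → ℂ)} = Nat.card W₂ := by
  classical
  obtain ⟨x₀, hx₀⟩ := S.exists_gen
  have hx₀1 : x₀ ≠ 1 := by
    rintro rfl
    apply S.ne
    rw [← hx₀]
    simp
  have hx₀m : x₀ ∈ W₁ := by rw [← hx₀]; exact Subgroup.mem_zpowers x₀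
  rw [← S.card_fix hx₀m hx₀1]
  refine Nat.card_congr (Equiv.subtypeEquivRight fun χ => ?_)
  exact ⟨fun h => h x₀ hx₀m, fun h y hy => S.fix_all hx₀m hx₀1 h hy⟩

/-- Elements of `L` are products `k * w`. -/
theorem Setup.exists_mul (S : Setup K W₁ W₂) (g : L) : ∃ k ∈ K, ∃ w ∈ W₁, g = k * w := by
  haveI := S.normal
  have h1 : g ∈ K ⊔ W₁ := by rw [S.sup]; trivial
  rw [Subgroup.mem_sup_of_normal_left] at h1
  obtain ⟨k, hk, w, hw, rfl⟩ := h1
  exact ⟨k, hk, w, hw, rfl⟩

theorem Setup.eq_one_of_mem (S : Setup K W₁ W₂) {w : L} (h1 : w ∈ W₁) (h2 : w ∈ K) : w = 1 := by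
  have : w ∈ K ⊓ W₁ := ⟨h2, h1⟩
  rw [S.inf] at this
  simpa using this

/-- A character moved by some element of `W₁` induces irreducibly. -/
theorem Setup.ind_irr (S : Setup K W₁ W₂) {θ : K → ℂ} (hθ : IsIrrCharacter K θ)
    (h : ∃ x ∈ W₁, ¬ Fix S.normal x θ) : IsIrrCharacter L (indFun K θ) := by
  classical
  letI : Fintype K := Fintype.ofFinite _
  refine indFun_isIrr_of_inertia_eq S.normal hθ ?_
  obtain ⟨y, hy, hnot⟩ := h
  have hcl : K ≤ inertia S.normal θ := le_inertia S.normal (IsCharacter.isClassFunction (IsIrrCharacter.isCharacter hθ))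
  refine le_antisymm ?_ hcl
  intro g hg
  obtain ⟨k, hk, w, hw, rfl⟩ := S.exists_mul g
  have hw1 : w ∈ inertia S.normal θ := by
    have := (inertia S.normal θ).mul_mem ((inertia S.normal θ).inv_mem (hcl hk)) hg
    simpa using this
  by_cases hw2 : w = 1
  · rw [hw2, mul_one]; exact hk
  · exfalso
    apply hnot
    have := S.fix_all (χ := ⟨θ, hθ⟩) hw hw2 ((mem_inertia_iff S.normal θ w).mp hw1) hy
    exact this

theorem isComplement_of (hn : K.Normal) (hinf : K ⊓ W₁ = ⊥) (hsup : K ⊔ W₁ = ⊤) : Subgroup.IsComplement' K W₁ := by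
  haveI := hn
  refine Subgroup.isComplement'_of_disjoint_and_mul_eq_univ ?_ ?_
  · rw [disjoint_iff]; exact hinf
  · rw [← Subgroup.normal_mul, hsup]; rfl

theorem card_eq_index_of (hn : K.Normal) (hinf : K ⊓ W₁ = ⊥) (hsup : K ⊔ W₁ = ⊤) : W₁.index = Nat.card K :=
  (isComplement_of hn hinf hsup).index_eq_card

/-- The projection to the complement. -/
theorem Setup.exists_proj (S : Setup K W₁ W₂) : ∃ π : L →* W₁, (∀ w : W₁, π w = w) ∧ ∀ g, π g = 1 ↔ g ∈ K := by
  classical
  haveI := S.normal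
  let f : W₁ →* L ⧸ K := (QuotientGroup.mk' K).comp W₁.subtype
  have hf : Function.Bijective f := by
    constructor
    · rw [injective_iff_map_eq_one]
      intro a ha
      have h1 : (a : L) ∈ K := (QuotientGroup.eq_one_iff _).mp ha
      exact Subtype.ext (S.eq_one_of_mem a.2 h1)
    · intro q
      obtain ⟨g, rfl⟩ := QuotientGroup.mk_surjective q
      obtain ⟨k, hk, w, hw, rfl⟩ := S.exists_mul g
      refine ⟨⟨w, hw⟩, ?_⟩
      show ((w : L) : L ⧸ K) = ((k * w : L) : L ⧸ K)
      rw [QuotientGroup.mk_mul, (QuotientGroup.eq_one_iff k).mpr hk, one_mul]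
  let e := MulEquiv.ofBijective f hf
  refine ⟨(e.symm.toMonoidHom).comp (QuotientGroup.mk' K), fun w => ?_, fun g => ?_⟩
  · show e.symm (f w) = w
    exact e.symm_apply_apply w
  · constructor
    · intro h
      have h1 : e.symm ((g : L ⧸ K)) = 1 := h
      have h2 : ((g : L ⧸ K)) = 1 := by
        have := congrArg e h1
        simpa using this
      exact (QuotientGroup.eq_one_iff g).mp h2
    · intro h
      show e.symm ((g : L ⧸ K)) = 1
      rw [(QuotientGroup.eq_one_iff g).mpr h]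
      simp

theorem Setup.index_eq (S : Setup K W₁ W₂) : K.index = Nat.card W₁ :=
  (isComplement_of S.normal S.inf S.sup).symm.index_eq_card

/-- An invariant function on `K` is invariant under all of `L`. -/
theorem Setup.fix_top (S : Setup K W₁ W₂) {θ : K → ℂ} (hθ : IsClassFunction K θ) (h : ∀ x ∈ W₁, Fix S.normal x θ) :
    inertia S.normal θ = ⊤ := by
  rw [eq_top_iff, ← S.sup]
  refine sup_le (le_inertia S.normal hθ) fun x hx => ?_
  exact (mem_inertia_iff S.normal θ x).mpr (h x hx)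

/-- An invariant irreducible character induces to a sum of `|W₁|` distinct irreducible characters. -/
theorem Setup.ind_sum (S : Setup K W₁ W₂) {θ : K → ℂ} (hθ : IsIrrCharacter K θ) (h : ∀ x ∈ W₁, Fix S.normal x θ) :
    ∃ C : Finset (L → ℂ), C.card = Nat.card W₁ ∧ (∀ μ ∈ C, IsIrrCharacter L μ) ∧ indFun K θ = ∑ μ ∈ C, μ := by
  classical
  haveI := S.normal
  letI : Fintype K := Fintype.ofFinite _
  haveI := S.cyc
  letI : CommGroup W₁ := IsCyclic.commGroup
  letI : Fintype (W₁ →* ℂˣ) := Fintype.ofFinite _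
  obtain ⟨π, hπ1, hπ2⟩ := S.exists_proj
  have hcl : IsClassFunction K θ := IsCharacter.isClassFunction (IsIrrCharacter.isCharacter hθ)
  have htop := S.fix_top hcl h
  have hinv : ∀ (g : L) (n : K), θ ⟨g * n * g⁻¹, S.normal.conj_mem (n : L) n.2 g⟩ = θ n := by
    intro g n
    have hg : g ∈ inertia S.normal θ := by rw [htop]; trivial
    exact (mem_inertia_iff S.normal θ g).mp hg n
  obtain ⟨X, hX, hext⟩ := exists_ext_of_coprime K (by rw [S.index_eq]; exact S.cop.symm) hθ hinv
  have hinjl : Function.Injective (fun l : W₁ →* ℂˣ => tl π l) := by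
    intro l l' hl
    ext w
    have h1 := congrFun hl (w : L)
    simp only [tl, hπ1] at h1
    exact h1
  have hbij := gallagher_ext K hθ hX hext
  have hinjt : Function.Injective (fun l : W₁ →* ℂˣ => X * tl π l) := by
    intro l l' hl
    apply hinjl
    refine hbij.injOn (x₁ := tl π l) (x₂ := tl π l') ?_ ?_ ?_
    · refine ⟨isIrrCharacter_of_hom (l.comp π), fun n hn => ?_⟩
      simp [tl, (hπ2 n).mpr hn]
    · refine ⟨isIrrCharacter_of_hom (l'.comp π), fun n hn => ?_⟩
      simp [tl, (hπ2 n).mpr hn]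
    · show tl π l * X = tl π l' * X
      rw [mul_comm, mul_comm (tl π l')]
      exact hl
  refine ⟨Finset.univ.image (fun l : W₁ →* ℂˣ => X * tl π l), ?_, ?_, ?_⟩
  · rw [Finset.card_image_of_injective _ hinjt, Finset.card_univ, ← Nat.card_eq_fintype_card]
    exact CommGroup.card_monoidHom_of_hasEnoughRootsOfUnity W₁ ℂ
  · intro μ hμ
    obtain ⟨l, -, rfl⟩ := Finset.mem_image.mp hμ
    exact isIrr_mul_tl π l ⟨X, hX⟩
  · funext g
    rw [Finset.sum_image (fun a _ b _ hab => hinjt hab), Finset.sum_apply]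
    simp only [Pi.mul_apply]
    rw [← Finset.mul_sum, sum_tl]
    have hcard : (Fintype.card (W₁ →* ℂˣ) : ℂ) = (Nat.card W₁ : ℂ) := by
      rw [← Nat.card_eq_fintype_card, CommGroup.card_monoidHom_of_hasEnoughRootsOfUnity W₁ ℂ]
    rw [hcard, indFun_apply]
    by_cases hg : g ∈ K
    · rw [if_pos ((hπ2 g).mpr hg)]
      have h2 : ∀ x : L, extendByZero K θ (x⁻¹ * g * x) = θ ⟨g, hg⟩ := by
        intro x
        have h3 : x⁻¹ * g * x ∈ K := by
          have := S.normal.conj_mem g hg x⁻¹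
          simpa using this
        rw [extendByZero_of_mem K θ h3]
        have h4 := hinv x⁻¹ ⟨g, hg⟩
        simpa using h4
      rw [Finset.sum_congr rfl (fun x _ => h2 x)]
      simp only [Finset.sum_const, Finset.card_univ, nsmul_eq_mul]
      have h5 : X g = θ ⟨g, hg⟩ := hext ⟨g, hg⟩
      rw [h5, ← Nat.card_eq_fintype_card]
      have h6 : (Nat.card L : ℂ) = (Nat.card K : ℂ) * (Nat.card W₁ : ℂ) := by
        rw [← S.index_eq]
        exact_mod_cast K.card_mul_index.symm
      rw [h6]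
      have h7 : (Nat.card K : ℂ) ≠ 0 := by exact_mod_cast Nat.card_pos.ne'
      field_simp
    · have h1 : π g ≠ 1 := fun h => hg ((hπ2 g).mp h)
      rw [if_neg h1, mul_zero]
      have h2 : ∀ x : L, extendByZero K θ (x⁻¹ * g * x) = 0 := by
        intro x
        refine extendByZero_of_not_mem K θ fun h3 => hg ?_
        have := S.normal.conj_mem _ h3 x
        simpa [mul_assoc] using this
      simp [h2]

end Cfsg.Agent.Lib.Coprime.CycCent
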