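import Mathlib
import Cfsg.Agent.Lib.Coprime.CycCent
import Cfsg.Agent.Lib.Char.Integral

/-!
# Values of canonical extensions on the cosets of a cyclic Hall complement
-/

set_option autoImplicit false
set_option linter.style.haveILetI false
set_option linter.unusedSectionVars false
set_option linter.unusedSimpArgs false
set_option linter.unnecessarySimpa false

open scoped ComplexConjugate
open Cfsg Cfsg.Agent.Lib.Char Cfsg.Agent.Lib.Coprime

namespace Cfsg.Agent.Lib.Coprime.CycCent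

universe u

section Cong

/-- The freshman's dream for algebraic integers. -/
theorem exists_pow_sum_integral {ι : Type*} (s : Finset ι) (z : ι → ℂ) (hz : ∀ i, IsIntegral ℤ (z i)) {q : ℕ}
    (hq : q.Prime) : ∃ τ : ℂ, IsIntegral ℤ τ ∧ (∑ i ∈ s, z i) ^ q = ∑ i ∈ s, z i ^ q + (q : ℂ) * τ := by
  classical
  induction s using Finset.induction_on with
  | empty => exact ⟨0, isIntegral_zero, by simp [hq.ne_zero]⟩
  | insert a s ha ih =>
    obtain ⟨τ, hτ, h⟩ := ih
    have hS : IsIntegral ℤ (∑ i ∈ s, z i) := IsIntegral.sum _ (fun i _ => hz i)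
    obtain ⟨r, hr⟩ := exists_add_pow_prime_eq hq (⟨z a, hz a⟩ : integralClosure ℤ ℂ) (⟨_, hS⟩ : integralClosure ℤ ℂ)
    have hr' : (z a + ∑ i ∈ s, z i) ^ q = z a ^ q + (∑ i ∈ s, z i) ^ q + (q : ℂ) * z a * (∑ i ∈ s, z i) * (r : ℂ) := by
      simpa using congrArg Subtype.val hr
    refine ⟨τ + z a * (∑ i ∈ s, z i) * (r : ℂ), hτ.add (((hz a).mul hS).mul r.2), ?_⟩
    rw [Finset.sum_insert ha, Finset.sum_insert ha, hr', h]
    ring

/-- The congruence `χ(g)^q ≡ χ(g^q)` modulo `q` for a character. -/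
theorem char_pow_prime {G : Type*} [Group G] [Finite G] {X : G → ℂ} (hX : IsCharacter G X) (g : G) {q : ℕ} (hq : q.Prime) :
    ∃ τ : ℂ, IsIntegral ℤ τ ∧ X g ^ q = X (g ^ q) + (q : ℂ) * τ := by
  obtain ⟨n, ρ, rfl⟩ := hX
  obtain ⟨ζ, hζ, h⟩ := character_eq_sum_roots ρ g (isOfFinOrder_of_finite g)
  have hint : ∀ i, IsIntegral ℤ (ζ i) := fun i => root_isIntegral (orderOf_pos g).ne' (hζ i)
  obtain ⟨τ, hτ, h1⟩ := exists_pow_sum_integral Finset.univ ζ hint hq
  refine ⟨τ, hτ, ?_⟩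
  have h2 := h 1
  have h3 := h (q : ℤ)
  simp only [zpow_one] at h2
  simp only [zpow_natCast] at h3
  show ρ.character g ^ q = ρ.character (g ^ q) + _
  rw [h2, h3, h1]

/-- Roots of unity of order prime to `q` which are congruent modulo `q` are equal. -/
theorem root_eq_of_cong {u v : ℂ} {M q : ℕ} (hM : M ≠ 0) (hu : u ^ M = 1) (hv : v ^ M = 1) (hq : q.Prime)
    (hcop : ¬ q ∣ M) {τ : ℂ} (hτ : IsIntegral ℤ τ) (h : u - v = (q : ℂ) * τ) : u = v := by
  classical
  by_contra hne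
  have hv0 : v ≠ 0 := by
    rintro rfl
    rw [zero_pow hM] at hv
    exact zero_ne_one hv
  set w : ℂ := u * v⁻¹ with hw
  have hwM : w ^ M = 1 := by
    rw [hw, mul_pow, inv_pow, hu, hv]
    simp
  have hw1 : w ≠ 1 := by
    intro h1
    apply hne
    rw [hw, mul_inv_eq_one₀ hv0] at h1
    exact h1
  have hvint : IsIntegral ℤ v⁻¹ := by
    have : v⁻¹ = v ^ (M - 1) := by
      have h1 : v ^ (M - 1) * v = 1 := by
        rw [← pow_succ, Nat.sub_add_cancel (Nat.pos_of_ne_zero hM), hv]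
      field_simp
      rw [← h1]
      ring
    rw [this]
    exact (root_isIntegral hM hv).pow _
  have hwint : IsIntegral ℤ w := root_isIntegral hM hwM
  have hw2 : 1 - w = (q : ℂ) * (-(τ * v⁻¹)) := by
    have : w - 1 = (u - v) * v⁻¹ := by
      rw [hw]
      field_simp
    have h2 : 1 - w = -((u - v) * v⁻¹) := by rw [← this]; ring
    rw [h2, h]
    ring
  have hsum0 : ∑ i ∈ Finset.range M, w ^ i = 0 := by
    have h1 := mul_neg_geom_sum w M
    rw [hwM, sub_self] at h1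
    rcases mul_eq_zero.mp h1 with h2 | h2
    · exact absurd (sub_eq_zero.mp h2).symm hw1
    · exact h2
  let Y : ℂ := ∑ i ∈ Finset.range M, ∑ j ∈ Finset.range i, w ^ j
  have hYint : IsIntegral ℤ Y := IsIntegral.sum _ fun i _ => IsIntegral.sum _ fun j _ => hwint.pow j
  have hMY : (M : ℂ) = (1 - w) * Y := by
    have h1 : (1 - w) * Y = ∑ i ∈ Finset.range M, (1 - w ^ i) := by
      rw [Finset.mul_sum]
      exact Finset.sum_congr rfl fun i _ => mul_neg_geom_sum w i
    rw [h1, Finset.sum_sub_distrib, hsum0]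
    simp
  have hint : IsIntegral ℤ (((M : ℚ) / (q : ℚ) : ℚ) : ℂ) := by
    have hq0 : (q : ℂ) ≠ 0 := by exact_mod_cast hq.ne_zero
    have h3 : (((M : ℚ) / (q : ℚ) : ℚ) : ℂ) = (-(τ * v⁻¹)) * Y := by
      push_cast
      rw [hMY, hw2]
      field_simp
    rw [h3]
    exact ((hτ.mul hvint).neg).mul hYint
  obtain ⟨n, hn⟩ := (isIntegral_ratCast_iff _).mp hint
  apply hcop
  have hq0 : (q : ℚ) ≠ 0 := by exact_mod_cast hq.ne_zero
  rw [div_eq_iff hq0] at hn
  have h4 : (M : ℤ) = n * q := by exact_mod_cast hn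
  have h5 : (q : ℤ) ∣ (M : ℤ) := ⟨n, by rw [h4]; ring⟩
  exact_mod_cast h5

theorem exists_coprime_lift {n m u : ℕ} (hm : m ≠ 0) (h : n ∣ m) (hu : u.Coprime n) :
    ∃ u' : ℕ, u' ≡ u [MOD n] ∧ u'.Coprime m := by
  haveI : NeZero m := ⟨hm⟩
  obtain ⟨w, hw⟩ := ZMod.unitsMap_surjective h (ZMod.unitOfCoprime u hu)
  refine ⟨((w : ZMod m)).val, ?_, ZMod.val_coe_unit_coprime w⟩
  have h1 : ZMod.castHom h (ZMod n) (w : ZMod m) = (u : ZMod n) := by
    have := congrArg Units.val hw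
    simpa [ZMod.unitsMap] using this
  rw [← ZMod.natCast_eq_natCast_iff]
  rw [← h1]
  simp

end Cong

variable {L : Type u} [Group L] [Fintype L] {K W₁ W₂ : Subgroup L}

/-- The linear form of an irreducible character of `W₂`. -/
theorem Setup.exists_hom (S : Setup K W₁ W₂) (β : IrrCharacter W₂) : ∃ l : W₂ →* ℂˣ, ∀ c, (β : W₂ → ℂ) c = (l c : ℂ) := by
  classical
  have h1 : (β : W₂ → ℂ) 1 = 1 :=
    charDegree_eq_one_of_comm (fun a b => Subtype.ext (S.comm _ a.2 _ b.2)) β.2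
  obtain ⟨l, hl⟩ := exists_hom_of_character_one (IsIrrCharacter.isCharacter β.2) h1
  exact ⟨l, fun c => congrFun hl c⟩

section Val

variable {X : L → ℂ}

/-- The core data attached to a non-identity element of `W₁`. -/
theorem Setup.coreData [Fintype K] [Fintype W₂] (S : Setup K W₁ W₂) {x : L} (hx : x ∈ W₁) (h1 : x ≠ 1) :
    CoreData K.subtype (Subgroup.inclusion S.le) x := by
  haveI := S.normal
  refine ⟨K.subtype_injective, Subgroup.inclusion_injective S.le, ?_, ?_, ?_⟩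
  · rw [Subgroup.range_subtype]
    infer_instance
  · intro y
    constructor
    · rintro ⟨c, rfl⟩
      exact S.commute hx c.2
    · intro h
      exact ⟨⟨y, S.mem_W₂ hx h1 y.2 h⟩, Subtype.ext rfl⟩
  · exact Nat.Coprime.coprime_dvd_left (Subgroup.orderOf_dvd_natCard W₁ hx) S.cop.symm

/-- Invariance under coprime powers of an element of `W₁`. -/
theorem Setup.value_pow_coprime (S : Setup K W₁ W₂) (hX : IsIrrCharacter L X) (hG : IsIrrCharacter K (fun g : K => X g))
    (hdet : (detOrder X).Coprime (Nat.card W₁)) {x c : L} (hx : x ∈ W₁) (hc : c ∈ W₂) {u : ℕ} (hu : u.Coprime (orderOf x)) :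
    X (c * x ^ u) = X (c * x) := by
  classical
  haveI := S.normal
  obtain ⟨u', hu1, hu2⟩ := exists_coprime_lift (m := Nat.card W₁) Nat.card_pos.ne' (Subgroup.orderOf_dvd_natCard W₁ hx) hu
  have h1 : x ^ u' = x ^ u := pow_eq_pow_iff_modEq.mpr hu1
  rw [← h1]
  exact canonical_pow S.cop S.sup hX hG hdet (S.le hc) hx (S.commute hx hc) u' hu2

/-- The value on the coset of a non-identity element of `W₁`. -/
theorem Setup.value (S : Setup K W₁ W₂) (hX : IsIrrCharacter L X) (hG : IsIrrCharacter K (fun g : K => X g))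
    (hdet : (detOrder X).Coprime (Nat.card W₁)) {x : L} (hx : x ∈ W₁) (h1 : x ≠ 1) :
    ∃ (β : IrrCharacter W₂) (ε : ℤ), (ε = 1 ∨ ε = -1) ∧ ∀ c : W₂, X ((c : L) * x) = (ε : ℂ) * (β : W₂ → ℂ) c := by
  classical
  letI : Fintype K := Fintype.ofFinite _
  letI : Fintype W₂ := Fintype.ofFinite _
  have D := S.coreData hx h1
  exact core_value_gen D (IsIrrCharacter.isCharacter hX) (classInner_irr_self hG)
    (fun u hu c => S.value_pow_coprime hX hG hdet hx c.2 hu)

/-- Passing from an element to its `q`-th power. -/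
theorem Setup.value_pow (S : Setup K W₁ W₂) (hX : IsIrrCharacter L X) (hG : IsIrrCharacter K (fun g : K => X g))
    (hdet : (detOrder X).Coprime (Nat.card W₁)) {a : L} (ha : a ∈ W₁) {β : IrrCharacter W₂} {ε : ℤ} (hε : ε = 1 ∨ ε = -1)
    (hP : ∀ c : W₂, X ((c : L) * a) = (ε : ℂ) * (β : W₂ → ℂ) c) {q : ℕ} (hq : q.Prime) (hq2 : q ≠ 2 ∨ ¬ q ∣ orderOf a)
    (h1 : a ^ q ≠ 1) : ∀ c : W₂, X ((c : L) * a ^ q) = (ε : ℂ) * (β : W₂ → ℂ) c := by
  classical
  by_cases hqa : q ∣ orderOf a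
  swap
  · intro c
    rw [S.value_pow_coprime hX hG hdet ha c.2 ((Nat.Prime.coprime_iff_not_dvd hq).mpr hqa), hP]
  have hqodd : q ≠ 2 := by
    rcases hq2 with h | h
    · exact h
    · exact absurd hqa h
  obtain ⟨β', ε', hε', hP'⟩ := S.value hX hG hdet (W₁.pow_mem ha q) h1
  obtain ⟨l, hl⟩ := S.exists_hom β
  obtain ⟨l', hl'⟩ := S.exists_hom β'
  have hqW₁ : q ∣ Nat.card W₁ := hqa.trans (Subgroup.orderOf_dvd_natCard W₁ ha)
  have hqK : ¬ q ∣ Nat.card K := fun h => hq.one_lt.ne' (Nat.eq_one_of_dvd_coprimes S.cop h hqW₁)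
  have hqW₂ : ¬ q ∣ Nat.card W₂ := fun h => hqK (h.trans (Subgroup.card_dvd_of_le S.le))
  intro d
  have hcopd : q.Coprime (orderOf d) := (Nat.Prime.coprime_iff_not_dvd hq).mpr fun h => hqW₂ (h.trans (orderOf_dvd_natCard d))
  obtain ⟨m, hm⟩ := exists_pow_eq_self_of_coprime hcopd
  set c : W₂ := d ^ m with hc
  have hcq : c ^ q = d := by
    rw [hc, ← pow_mul, mul_comm, pow_mul, hm]
  have hcomm : Commute (c : L) a := S.commute ha c.2
  obtain ⟨τ, hτ, hcong⟩ := char_pow_prime (IsIrrCharacter.isCharacter hX) ((c : L) * a) hq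
  rw [hcomm.mul_pow] at hcong
  have hcq' : ((c : L)) ^ q = (d : L) := by
    have := congrArg Subtype.val hcq
    simpa using this
  rw [hcq', hP c, hP' d, hl, hl', mul_pow] at hcong
  have hodd : Odd q := hq.odd_of_ne_two hqodd
  have hεq : ((ε : ℂ)) ^ q = (ε : ℂ) := by
    rcases hε with rfl | rfl
    · simp
    · simp [hodd.neg_one_pow]
  have hlq : ((l c : ℂˣ) : ℂ) ^ q = ((l d : ℂˣ) : ℂ) := by
    rw [← Units.val_pow_eq_pow_val, ← map_pow, hcq]
  rw [hεq, hlq] at hcong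
  -- roots of unity
  have hroot : ∀ (e : ℤ) (k : W₂ →* ℂˣ), (e = 1 ∨ e = -1) → (((e : ℂ) * ((k d : ℂˣ) : ℂ)) ^ (2 * Nat.card W₂) = 1) := by
    intro e k he
    have h2 : ((e : ℂ)) ^ 2 = 1 := by
      rcases he with rfl | rfl <;> simp
    rw [mul_pow, pow_mul ((e : ℂ)), h2, one_pow, one_mul, ← Units.val_pow_eq_pow_val, ← map_pow, mul_comm, pow_mul,
      pow_card_eq_one', one_pow]
    simp
  have hM : 2 * Nat.card W₂ ≠ 0 := by
    have : 0 < Nat.card W₂ := Nat.card_pos
    omega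
  have hqM : ¬ q ∣ 2 * Nat.card W₂ := by
    intro h
    rcases (Nat.Prime.dvd_mul hq).mp h with h | h
    · exact hqodd ((Nat.prime_dvd_prime_iff_eq hq Nat.prime_two).mp h)
    · exact hqW₂ h
  have hfin : (ε : ℂ) * ((l d : ℂˣ) : ℂ) = (ε' : ℂ) * ((l' d : ℂˣ) : ℂ) :=
    root_eq_of_cong hM (hroot ε l hε) (hroot ε' l' hε') hq hqM hτ (by rw [hcong]; ring)
  rw [hP', hl, hl', hfin]

/-- If `W₁` has odd order, then the value on the coset is the same for all non-identity elements. -/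
theorem Setup.value_all (S : Setup K W₁ W₂) (hodd : Odd (Nat.card W₁)) (hX : IsIrrCharacter L X)
    (hG : IsIrrCharacter K (fun g : K => X g)) (hdet : (detOrder X).Coprime (Nat.card W₁)) :
    ∃ (β : IrrCharacter W₂) (ε : ℤ), (ε = 1 ∨ ε = -1) ∧ ∀ x ∈ W₁, x ≠ 1 → ∀ c : W₂, X ((c : L) * x) = (ε : ℂ) * (β : W₂ → ℂ) c := by
  classical
  obtain ⟨x₀, hx₀⟩ := S.exists_gen
  have hx₀1 : x₀ ≠ 1 := by
    rintro rfl
    apply S.ne
    rw [← hx₀]
    simp
  have hx₀m : x₀ ∈ W₁ := by rw [← hx₀]; exact Subgroup.mem_zpowers x₀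
  obtain ⟨β, ε, hε, hP⟩ := S.value hX hG hdet hx₀m hx₀1
  refine ⟨β, ε, hε, ?_⟩
  have key : ∀ m : ℕ, x₀ ^ m ≠ 1 → ∀ c : W₂, X ((c : L) * x₀ ^ m) = (ε : ℂ) * (β : W₂ → ℂ) c := by
    intro m
    induction m using Nat.strong_induction_on with
    | _ m ih =>
      intro hm
      rcases Nat.lt_or_ge m 2 with h2 | h2
      · interval_cases m
        · simp at hm
        · simpa using hP
      · obtain ⟨q, hq, m', rfl⟩ := Nat.exists_prime_and_dvd (show m ≠ 1 by omega)
        have hm' : x₀ ^ m' ≠ 1 := by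
          intro h
          apply hm
          rw [mul_comm, pow_mul, h, one_pow]
        have hm'0 : m' ≠ 0 := by
          rintro rfl
          simp at hm'
        have hlt : m' < q * m' := by
          have := hq.two_le
          nlinarith [Nat.pos_of_ne_zero hm'0]
        have hP' := ih m' hlt hm'
        have hq2 : q ≠ 2 ∨ ¬ q ∣ orderOf (x₀ ^ m') := by
          by_cases hq2 : q = 2
          · right
            subst hq2
            intro hdvd
            have h3 := hdvd.trans (Subgroup.orderOf_dvd_natCard W₁ (W₁.pow_mem hx₀m m'))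
            exact (Nat.not_even_iff_odd.mpr hodd) (even_iff_two_dvd.mpr h3)
          · left; exact hq2
        have h4 : x₀ ^ (q * m') = (x₀ ^ m') ^ q := by rw [mul_comm, pow_mul]
        rw [h4] at hm ⊢
        exact S.value_pow hX hG hdet (W₁.pow_mem hx₀m m') hε hP' hq hq2 hm
  intro x hx hx1 c
  rw [← hx₀] at hx
  obtain ⟨m, rfl⟩ := (Submonoid.mem_powers_iff _ _).mp (mem_powers_iff_mem_zpowers.mpr hx)
  exact key m hx1 c

end Val

section Family

/-- The canonical extension of an invariant irreducible character. -/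
theorem Setup.exists_canonical (S : Setup K W₁ W₂) {θ : K → ℂ} (hθ : IsIrrCharacter K θ)
    (h : ∀ x ∈ W₁, Fix S.normal x θ) :
    ∃ X : L → ℂ, IsIrrCharacter L X ∧ (∀ n : K, X n = θ n) ∧ (detOrder X).Coprime (Nat.card W₁) := by
  classical
  haveI := S.normal
  have hcl : IsClassFunction K θ := IsCharacter.isClassFunction (IsIrrCharacter.isCharacter hθ)
  have htop := S.fix_top hcl h
  have hinv : ∀ (g : L) (n : K), θ ⟨g * n * g⁻¹, S.normal.conj_mem (n : L) n.2 g⟩ = θ n := by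
    intro g n
    have hg : g ∈ inertia S.normal θ := by rw [htop]; trivial
    exact (mem_inertia_iff S.normal θ g).mp hg n
  obtain ⟨d, hd, -, hdvd⟩ := IsIrrCharacter_degree_dvd hθ
  have h1 : detOrder θ * d ∣ Nat.card K * Nat.card K :=
    mul_dvd_mul (detOrder_dvd_card (IsIrrCharacter.isCharacter hθ)) hdvd
  have hc : K.index.Coprime (Nat.card K) := by rw [S.index_eq]; exact S.cop.symm
  have h2 : K.index.Coprime (detOrder θ * d) :=
    Nat.Coprime.coprime_dvd_right h1 (Nat.Coprime.mul_right hc hc)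
  obtain ⟨X, ⟨hX, hext, hdet⟩, -⟩ := Cfsg.Agent.S0867.result K θ hθ hinv d hd h2
  refine ⟨X, hX, hext, ?_⟩
  rw [hdet, ← S.index_eq]
  exact (Nat.Coprime.coprime_dvd_right (Nat.dvd_of_mod_eq_zero (by simp) : detOrder θ ∣ detOrder θ * d) h2).symm

/-- The family of canonical extensions, indexed by the irreducible characters of `W₂`. -/
theorem Setup.exists_family (S : Setup K W₁ W₂) (hodd : Odd (Nat.card W₁)) :
    ∃ (X : IrrCharacter W₂ → L → ℂ) (ε : IrrCharacter W₂ → ℤ),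
      (∀ ψ, IsIrrCharacter L (X ψ)) ∧ (∀ ψ, IsIrrCharacter K (fun n : K => X ψ n)) ∧ (∀ ψ, ε ψ = 1 ∨ ε ψ = -1) ∧
      (∀ ψ, ∀ x ∈ W₁, x ≠ 1 → ∀ c : W₂, X ψ ((c : L) * x) = (ε ψ : ℂ) * (ψ : W₂ → ℂ) c) ∧
      (∀ θ : K → ℂ, IsIrrCharacter K θ → (∀ x ∈ W₁, Fix S.normal x θ) → ∃ ψ, (fun n : K => X ψ n) = θ) := by
  classical
  letI : Fintype K := Fintype.ofFinite _
  letI : Fintype W₂ := Fintype.ofFinite _
  let T := {χ : IrrCharacter K // ∀ x ∈ W₁, Fix S.normal x (χ : K → ℂ)}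
  have hcan : ∀ t : T, ∃ X : L → ℂ, IsIrrCharacter L X ∧ (∀ n : K, X n = (t.1 : K → ℂ) n) ∧
      (detOrder X).Coprime (Nat.card W₁) := fun t => S.exists_canonical t.1.2 t.2
  choose X hX hXext hXdet using hcan
  have hXK : ∀ t : T, (fun n : K => X t n) = (t.1 : K → ℂ) := fun t => funext (hXext t)
  have hXG : ∀ t : T, IsIrrCharacter K (fun n : K => X t n) := fun t => by
    rw [hXK]
    exact t.1.2
  have hval := fun t : T => S.value_all hodd (hX t) (hXG t) (hXdet t)
  choose β ε hε hβ using hval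
  obtain ⟨x₀, hx₀⟩ := S.exists_gen
  have hx₀1 : x₀ ≠ 1 := by
    rintro rfl
    apply S.ne
    rw [← hx₀]
    simp
  have hx₀m : x₀ ∈ W₁ := by rw [← hx₀]; exact Subgroup.mem_zpowers x₀
  have hD := S.coreData hx₀m hx₀1
  have hinj : Function.Injective β := by
    intro t t' htt
    by_contra hne
    have h0 : classInner (fun y : K => X t (K.subtype y)) (fun y : K => X t' (K.subtype y)) = 0 := by
      show classInner (fun n : K => X t n) (fun n : K => X t' n) = 0
      rw [hXK, hXK]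
      exact classInner_irr_of_ne t.1.2 t'.1.2 (fun h => hne (Subtype.ext (Subtype.ext h)))
    have h1 := core_sum_zero hD (IsIrrCharacter.isCharacter (hX t)) (IsIrrCharacter.isCharacter (hX t')) h0
    have h2 : ∑ c : W₂, X t (K.subtype (Subgroup.inclusion S.le c) * x₀) * conj (X t' (K.subtype (Subgroup.inclusion S.le c) * x₀)) =
        ((ε t : ℂ) * (ε t' : ℂ)) * ((Nat.card W₂ : ℂ) * classInner (β t : W₂ → ℂ) (β t : W₂ → ℂ)) := by
      rw [classInner_def, ← mul_assoc (Nat.card W₂ : ℂ), mul_inv_cancel₀ (by exact_mod_cast Nat.card_pos.ne'),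
        one_mul, Finset.mul_sum]
      refine Finset.sum_congr rfl fun c _ => ?_
      have h5 : K.subtype (Subgroup.inclusion S.le c) * x₀ = (c : L) * x₀ := rfl
      rw [h5, hβ t x₀ hx₀m hx₀1 c, hβ t' x₀ hx₀m hx₀1 c, htt]
      simp only [map_mul, map_intCast]
      ring
    rw [h1, classInner_irr_self (β t).2, mul_one] at h2
    have hne1 : (Nat.card W₂ : ℂ) ≠ 0 := by exact_mod_cast Nat.card_pos.ne'
    have hεne : ∀ t : T, (ε t : ℂ) ≠ 0 := by
      intro t
      rcases hε t with h | h <;> rw [h] <;> simp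
    exact (mul_ne_zero (mul_ne_zero (hεne t) (hεne t')) hne1) h2.symm
  have hcardT : Nat.card T = Nat.card W₂ := S.card_fix_all
  have hcardI : Nat.card (IrrCharacter W₂) = Nat.card W₂ := by
    rw [card_irr_eq_card_conjClasses, S.card_conjClasses]
  have hfinT : Finite T := inferInstance
  have hbij : Function.Bijective β := by
    refine (Nat.bijective_iff_injective_and_card β).mpr ⟨hinj, by rw [hcardT, hcardI]⟩
  let e := Equiv.ofBijective β hbij
  refine ⟨fun ψ => X (e.symm ψ), fun ψ => ε (e.symm ψ), fun ψ => hX _, fun ψ => hXG _, fun ψ => hε _, ?_, ?_⟩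
  · intro ψ x hx hx1 c
    have h1 := hβ (e.symm ψ) x hx hx1 c
    have h2 : β (e.symm ψ) = ψ := e.apply_symm_apply ψ
    rw [h2] at h1
    exact h1
  · intro θ hθ h
    let t : T := ⟨⟨θ, hθ⟩, h⟩
    refine ⟨β t, ?_⟩
    have h2 : e.symm (β t) = t := e.symm_apply_apply t
    show (fun n : K => X (e.symm (β t)) n) = θ
    rw [h2]
    exact hXK t

/-- The degree congruence. -/
theorem Setup.degree_cong (S : Setup K W₁ W₂) {X : L → ℂ} (hX : IsCharacter L X) {ε : ℤ}
    (h : ∀ x ∈ W₁, x ≠ 1 → X x = (ε : ℂ)) : ∃ n : ℤ, X 1 - (ε : ℂ) = (n : ℂ) * (Nat.card W₁ : ℂ) := by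
  classical
  letI : Fintype W₁ := Fintype.ofFinite _
  obtain ⟨m, hm⟩ := classInner_isCharacter_nat (IsCharacter.restrict W₁ hX) (IsIrrCharacter.isCharacter (isIrrCharacter_one (G := W₁)))
  refine ⟨(m : ℤ) - ε, ?_⟩
  have hW : (Nat.card W₁ : ℂ) ≠ 0 := by exact_mod_cast Nat.card_pos.ne'
  rw [classInner_def] at hm
  have h1 : ∑ w : W₁, X w * conj ((1 : ℂ)) = X 1 + ((Nat.card W₁ : ℂ) - 1) * (ε : ℂ) := by
    have h2 : ∑ w : W₁, X w * conj ((1 : ℂ)) = ∑ w : W₁, ((ε : ℂ) + (if w = 1 then X 1 - (ε : ℂ) else 0)) := by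
      refine Finset.sum_congr rfl fun w _ => ?_
      split_ifs with hw
      · simp [hw]
      · rw [map_one, mul_one, add_zero]
        exact h w w.2 (fun h3 => hw (Subtype.ext h3))
    rw [h2, Finset.sum_add_distrib, Finset.sum_ite_eq' Finset.univ (1 : W₁), if_pos (Finset.mem_univ _)]
    simp only [Finset.sum_const, Finset.card_univ, nsmul_eq_mul, ← Nat.card_eq_fintype_card]
    ring
  rw [h1] at hm
  have h4 : X 1 + ((Nat.card W₁ : ℂ) - 1) * (ε : ℂ) = (m : ℂ) * (Nat.card W₁ : ℂ) := by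
    field_simp at hm
    rw [hm]
    ring
  push_cast
  linear_combination h4

end Family

end Cfsg.Agent.Lib.Coprime.CycCent
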