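import Mathlib
import Cfsg.Agent.Lib.Coprime.CycCent2

/-!
# The degree congruence for canonical extensions, without any parity hypothesis
-/

set_option autoImplicit false
set_option linter.style.haveILetI false
set_option linter.unusedSectionVars false
set_option linter.unusedSimpArgs false
set_option linter.unnecessarySimpa false

open scoped ComplexConjugate
open Cfsg Cfsg.Agent.Lib.Char Cfsg.Agent.Lib.Coprime

namespace Cfsg.Agent.Lib.Coprime.CycCent

universe u

variable {L : Type u} [Group L] [Fintype L] {K W₁ W₂ : Subgroup L} {X : L → ℂ}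

/-- The value at a non-identity element of `W₁` is a sign. -/
theorem Setup.value_sign (S : Setup K W₁ W₂) (hX : IsIrrCharacter L X) (hG : IsIrrCharacter K (fun g : K => X g))
    (hdet : (detOrder X).Coprime (Nat.card W₁)) {x : L} (hx : x ∈ W₁) (h1 : x ≠ 1) : X x = 1 ∨ X x = -1 := by
  obtain ⟨β, ε, hε, hv⟩ := S.value hX hG hdet hx h1
  obtain ⟨l, hl⟩ := S.exists_hom β
  have h2 := hv 1
  rw [hl] at h2
  simp only [OneMemClass.coe_one, one_mul, map_one, Units.val_one, mul_one] at h2
  rcases hε with rfl | rfl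
  · left; simpa using h2
  · right; simpa using h2

/-- An odd power of a non-identity element of `W₁` has the same value. -/
theorem Setup.value_odd_pow (S : Setup K W₁ W₂) (hX : IsIrrCharacter L X) (hG : IsIrrCharacter K (fun g : K => X g))
    (hdet : (detOrder X).Coprime (Nat.card W₁)) {a : L} (ha : a ∈ W₁) {k : ℕ} (hk : Odd k) (h1 : a ^ k ≠ 1) :
    X (a ^ k) = X a := by
  induction k using Nat.strong_induction_on generalizing a with
  | _ k ih =>
    by_cases hk1 : k = 1
    · rw [hk1, pow_one]
    · obtain ⟨q, hq, k', rfl⟩ := Nat.exists_prime_and_dvd hk1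
      have hq2 : q ≠ 2 := by
        rintro rfl
        exact (Nat.not_even_iff_odd.mpr hk) (even_two_mul k')
      have hk'odd : Odd k' := (Nat.odd_mul.mp hk).2
      have hk'0 : 0 < k' := hk'odd.pos
      have hlt : k' < q * k' := by
        have := hq.two_le
        nlinarith
      have h2 : (a ^ k') ^ q ≠ 1 := by
        rw [← pow_mul, mul_comm]
        exact h1
      have h3 : a ^ k' ≠ 1 := by
        intro h
        apply h2
        rw [h, one_pow]
      have h4 : X (a ^ k') = X a := ih k' hlt ha hk'odd h3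
      obtain ⟨β, ε, hε, hv⟩ := S.value hX hG hdet (W₁.pow_mem ha k') h3
      have h5 := S.value_pow hX hG hdet (W₁.pow_mem ha k') hε hv hq (Or.inl hq2) h2 1
      have h6 := hv 1
      simp only [OneMemClass.coe_one, one_mul] at h5 h6
      rw [mul_comm q k', pow_mul, h5, ← h6, h4]

/-- The degree congruence. -/
theorem Setup.degree_sign (S : Setup K W₁ W₂) (hX : IsIrrCharacter L X) (hG : IsIrrCharacter K (fun g : K => X g))
    (hdet : (detOrder X).Coprime (Nat.card W₁)) :
    ∃ (ε : ℤ) (n : ℤ), (ε = 1 ∨ ε = -1) ∧ X 1 - (ε : ℂ) = (n : ℂ) * (Nat.card W₁ : ℂ) := by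
  classical
  haveI := S.cyc
  letI : CommGroup W₁ := IsCyclic.commGroup
  letI : Fintype W₁ := Fintype.ofFinite _
  set h := Nat.card W₁ with hh
  have hhpos : 0 < h := Nat.card_pos
  -- the multiplicities
  have hmult : ∀ l : W₁ →* ℂˣ, ∃ N : ℕ, ∑ a : W₁, X a * conj ((l a : ℂˣ) : ℂ) = (N : ℂ) * (h : ℂ) := by
    intro l
    obtain ⟨N, hN⟩ := classInner_isCharacter_nat (IsCharacter.restrict W₁ (IsIrrCharacter.isCharacter hX))
      (IsIrrCharacter.isCharacter (isIrrCharacter_of_hom l))
    refine ⟨N, ?_⟩
    rw [classInner_def] at hN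
    have hne : (h : ℂ) ≠ 0 := by exact_mod_cast hhpos.ne'
    have h1 : ((Nat.card W₁ : ℂ))⁻¹ * ∑ a : W₁, X a * conj ((l a : ℂˣ) : ℂ) = N := hN
    rw [← hh] at h1
    field_simp at h1
    rw [h1]
    ring
  -- the character of the units
  have hconj : ∀ (l : W₁ →* ℂˣ) (a b : W₁), conj ((l (a * b) : ℂˣ) : ℂ) = conj ((l a : ℂˣ) : ℂ) * conj ((l b : ℂˣ) : ℂ) := by
    intro l a b
    rw [map_mul, Units.val_mul, map_mul]
  obtain ⟨A, m, hm, hhdec⟩ : ∃ A m : ℕ, Odd m ∧ h = 2 ^ A * m := by
    obtain ⟨A, m, hm, h1⟩ := Nat.exists_eq_two_pow_mul_odd hhpos.ne'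
    exact ⟨A, m, hm, h1⟩
  obtain ⟨g, hg⟩ := IsCyclic.exists_generator (α := W₁)
  have hgord : orderOf g = h := by
    rw [hh, ← orderOf_eq_card_of_forall_mem_zpowers hg]
  have hpowsurj : ∀ a : W₁, ∃ k : ℕ, a = g ^ k := by
    intro a
    obtain ⟨k, hk⟩ := (Submonoid.mem_powers_iff _ _).mp (mem_powers_iff_mem_zpowers.mpr (hg a))
    exact ⟨k, hk.symm⟩
  have hcoe : ∀ (a : W₁), (a : L) ≠ 1 ↔ a ≠ 1 := fun a => by simp
  by_cases hm1 : m = 1
  · -- the `2`-group case
    subst hm1
    rw [mul_one] at hhdec
    have hA : A ≠ 0 := by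
      rintro rfl
      apply S.ne
      have h2 : Nat.card W₁ = 1 := by rw [← hh, hhdec]; rfl
      exact Subgroup.eq_bot_of_card_eq _ h2
    obtain ⟨B, rfl⟩ := Nat.exists_eq_succ_of_ne_zero hA
    set t : W₁ := g ^ (2 ^ B) with ht
    have ht1 : t ≠ 1 := by
      intro h0
      have h2 := orderOf_dvd_of_pow_eq_one h0
      rw [hgord, hhdec] at h2
      have h3 := Nat.le_of_dvd (by positivity) h2
      rw [pow_succ] at h3
      have : 0 < 2 ^ B := by positivity
      omega
    have ht2 : t * t = 1 := by
      rw [ht, ← pow_add, ← two_mul, ← pow_succ', ← hhdec, ← hgord, pow_orderOf_eq_one]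
    obtain ⟨l, hl⟩ := CommGroup.exists_apply_ne_one_of_hasEnoughRootsOfUnity W₁ ℂ ht1
    have hlt : ((l t : ℂˣ) : ℂ) = -1 := by
      have h2 : ((l t : ℂˣ) : ℂ) * ((l t : ℂˣ) : ℂ) = 1 := by
        rw [← Units.val_mul, ← map_mul, ht2]
        simp
      have h3 : ((l t : ℂˣ) : ℂ) ≠ 1 := fun h4 => hl (Units.ext h4)
      have h4 : (((l t : ℂˣ) : ℂ) - 1) * (((l t : ℂˣ) : ℂ) + 1) = 0 := by linear_combination h2
      rcases mul_eq_zero.mp h4 with h5 | h5
      · exact absurd (sub_eq_zero.mp h5) h3
      · exact eq_neg_of_add_eq_zero_left h5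
    -- the pairing of the other elements
    have hpair : ∀ a : W₁, a ≠ 1 → a ≠ t → X ((a * t : W₁) : L) = X (a : L) := by
      intro a ha hat
      obtain ⟨k, rfl⟩ := hpowsurj a
      have hk0 : k ≠ 0 := by
        rintro rfl
        simp at ha
      obtain ⟨e, k', hk', hk⟩ := Nat.exists_eq_two_pow_mul_odd hk0
      have heB : e < B := by
        by_contra hcon
        push Not at hcon
        rcases Nat.lt_or_ge B e with h2 | h2
        · apply ha
          have h3 : 2 ^ (B + 1) ∣ k := by
            rw [hk]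
            exact Dvd.dvd.mul_right (pow_dvd_pow 2 h2) k'
          rw [← hhdec, ← hgord] at h3
          exact orderOf_dvd_iff_pow_eq_one.mp h3
        · have h3 : e = B := le_antisymm h2 hcon
          subst h3
          apply hat
          rw [hk, pow_mul, ← ht]
          obtain ⟨r, rfl⟩ := hk'
          rw [pow_succ, pow_mul, sq, ht2, one_pow, one_mul]
      set z : W₁ := g ^ (2 ^ e) with hz
      have hu : Odd (k' + 2 ^ (B - e)) := by
        have h2 : Even (2 ^ (B - e)) := (Nat.even_pow' (by omega)).mpr even_two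
        exact hk'.add_even h2
      have h3 : g ^ k = z ^ k' := by rw [hk, pow_mul]
      have h4 : g ^ k * t = z ^ (k' + 2 ^ (B - e)) := by
        have h7 : 2 ^ B = 2 ^ e * 2 ^ (B - e) := by rw [← pow_add, Nat.add_sub_cancel' heB.le]
        rw [h3, pow_add, ht, h7, pow_mul, ← hz]
      have hza : ((z ^ k' : W₁) : L) ≠ 1 := by
        rw [← h3]
        exact (hcoe _).mpr ha
      have hzb : ((z ^ (k' + 2 ^ (B - e)) : W₁) : L) ≠ 1 := by
        rw [← h4, hcoe]
        intro h5
        apply hat
        have h6 : g ^ k * t * t = t := by rw [h5, one_mul]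
        rw [mul_assoc, ht2, mul_one] at h6
        exact h6
      have h5 := S.value_odd_pow hX hG hdet z.2 hk' (by simpa using hza)
      have h6 := S.value_odd_pow hX hG hdet z.2 hu (by simpa using hzb)
      rw [h4, h3]
      simp only [Subgroup.coe_pow] at h5 h6 ⊢
      rw [h5, h6]
    -- the sum
    let s : Finset W₁ := Finset.univ.filter fun a => a ≠ 1 ∧ a ≠ t
    have hsum : ∑ a ∈ s, X a * conj ((l a : ℂˣ) : ℂ) = 0 := by
      set T := ∑ a ∈ s, X a * conj ((l a : ℂˣ) : ℂ) with hT
      have h2 : T = ∑ a ∈ s, X ((a * t : W₁) : L) * conj ((l (a * t) : ℂˣ) : ℂ) := by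
        refine (Finset.sum_nbij' (fun a => a * t) (fun a => a * t) ?_ ?_ ?_ ?_ ?_).symm
        · intro a ha
          simp only [s, Finset.mem_filter, Finset.mem_univ, true_and] at ha ⊢
          refine ⟨fun h3 => ha.2 ?_, fun h3 => ha.1 ?_⟩
          · have h4 : a * t * t = t := by rw [h3, one_mul]
            rwa [mul_assoc, ht2, mul_one] at h4
          · exact mul_right_cancel (h3.trans (one_mul t).symm)
        · intro a ha
          simp only [s, Finset.mem_filter, Finset.mem_univ, true_and] at ha ⊢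
          refine ⟨fun h3 => ha.2 ?_, fun h3 => ha.1 ?_⟩
          · have h4 : a * t * t = t := by rw [h3, one_mul]
            rwa [mul_assoc, ht2, mul_one] at h4
          · exact mul_right_cancel (h3.trans (one_mul t).symm)
        · intro a _
          show a * t * t = a
          rw [mul_assoc, ht2, mul_one]
        · intro a _
          show a * t * t = a
          rw [mul_assoc, ht2, mul_one]
        · intro a _
          rfl
      have h3 : ∑ a ∈ s, X ((a * t : W₁) : L) * conj ((l (a * t) : ℂˣ) : ℂ) = -T := by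
        rw [hT, ← Finset.sum_neg_distrib]
        refine Finset.sum_congr rfl fun a ha => ?_
        simp only [s, Finset.mem_filter, Finset.mem_univ, true_and] at ha
        rw [hpair a ha.1 ha.2, hconj, hlt]
        simp
      rw [h3] at h2
      have h4 : (2 : ℂ) * T = 0 := by linear_combination h2
      simpa using h4
    have hsplit : ∑ a : W₁, X a * conj ((l a : ℂˣ) : ℂ) = X 1 - X (t : L) := by
      have h2 : (Finset.univ : Finset W₁) = insert 1 (insert t s) := by
        ext a
        simp only [s, Finset.mem_univ, Finset.mem_insert, Finset.mem_filter, true_and, true_iff]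
        tauto
      have h3 : t ∉ s := by simp [s]
      have h4 : (1 : W₁) ∉ insert t s := by
        simp only [s, Finset.mem_insert, Finset.mem_filter, Finset.mem_univ, true_and, not_or]
        exact ⟨fun h5 => ht1 h5.symm, by simp⟩
      rw [h2, Finset.sum_insert h4, Finset.sum_insert h3, hsum, hlt]
      simp
      ring
    obtain ⟨N, hN⟩ := hmult l
    rw [hsplit] at hN
    rcases S.value_sign hX hG hdet t.2 ((hcoe t).mpr ht1) with h2 | h2
    · refine ⟨1, N, Or.inl rfl, ?_⟩
      rw [h2] at hN
      simpa using hN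
    · refine ⟨-1, N, Or.inr rfl, ?_⟩
      rw [h2] at hN
      simpa using hN
  · -- the general case
    have hmgt : 1 < m := by
      have := hm.pos
      omega
    set y : W₁ := g ^ (2 ^ A) with hy
    have hy1 : y ≠ 1 := by
      intro h0
      have h2 := orderOf_dvd_of_pow_eq_one h0
      rw [hgord, hhdec] at h2
      have h3 := Nat.le_of_dvd (by positivity) h2
      have : 0 < 2 ^ A := by positivity
      nlinarith
    have hym : y ^ m = 1 := by
      rw [hy, ← pow_mul, ← hhdec, ← hgord, pow_orderOf_eq_one]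
    obtain ⟨l, hl⟩ := CommGroup.exists_apply_ne_one_of_hasEnoughRootsOfUnity W₁ ℂ hy1
    set κ : ℂ := conj ((l y : ℂˣ) : ℂ) with hκ
    have hκ1 : κ ≠ 1 := by
      intro h2
      apply hl
      apply Units.ext
      have h3 := congrArg conj h2
      simpa [hκ] using h3
    -- elements killed by `m`
    let O : Finset W₁ := Finset.univ.filter fun a => a ^ m = 1
    have hmemO : ∀ a, a ∈ O ↔ a ^ m = 1 := fun a => by simp [O]
    have hO_y : ∀ a, a * y ∈ O ↔ a ∈ O := by
      intro a
      rw [hmemO, hmemO, mul_pow, hym, mul_one]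
    -- translation
    have htrans : ∀ (T : Finset W₁), (∀ a, a * y ∈ T ↔ a ∈ T) → ∀ f : W₁ → ℂ, (∀ a ∈ T, f (a * y) = κ * f a) → ∑ a ∈ T, f a = 0 := by
      intro T hT f hf
      have h2 : ∑ a ∈ T, f a = ∑ a ∈ T, f (a * y) := by
        refine (Finset.sum_nbij' (fun a => a * y) (fun a => a * y⁻¹) ?_ ?_ ?_ ?_ ?_).symm
        · intro a ha
          exact (hT a).mpr ha
        · intro a ha
          refine (hT _).mp ?_
          simpa using ha
        · intro a _
          simp
        · intro a _
          simp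
        · intro a _
          rfl
      rw [Finset.sum_congr rfl hf, ← Finset.mul_sum] at h2
      have h3 : (1 - κ) * ∑ a ∈ T, f a = 0 := by linear_combination h2
      rcases mul_eq_zero.mp h3 with h4 | h4
      · exact absurd (sub_eq_zero.mp h4).symm hκ1
      · exact h4
    -- outside `O`
    have hout : ∀ a : W₁, a ∉ O → X ((a * y : W₁) : L) = X (a : L) := by
      intro a ha
      have h2 : a ^ m ≠ 1 := fun h3 => ha ((hmemO a).mpr h3)
      have h3 : (a * y) ^ m = a ^ m := by rw [mul_pow, hym, mul_one]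
      have h4 := S.value_odd_pow hX hG hdet (a * y).2 hm (by
        rw [← Subgroup.coe_pow, h3]
        exact (hcoe _).mpr h2)
      have h5 := S.value_odd_pow hX hG hdet a.2 hm (by
        rw [← Subgroup.coe_pow]
        exact (hcoe _).mpr h2)
      rw [← h4, ← h5, ← Subgroup.coe_pow, ← Subgroup.coe_pow, h3]
    have hT1 : ∑ a ∈ Finset.univ.filter (fun a => a ∉ O), X a * conj ((l a : ℂˣ) : ℂ) = 0 := by
      refine htrans _ (fun a => ?_) _ (fun a ha => ?_)
      · simp only [Finset.mem_filter, Finset.mem_univ, true_and, hO_y]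
      · simp only [Finset.mem_filter, Finset.mem_univ, true_and] at ha
        rw [hout a ha, hconj]
        simp only [hκ]
        ring
    have hT0 : ∑ a ∈ O, conj ((l a : ℂˣ) : ℂ) = 0 := by
      refine htrans _ hO_y _ (fun a _ => ?_)
      rw [hconj]
      simp only [hκ]
      ring
    -- inside `O`
    have hin : ∀ a ∈ O, a ≠ 1 → X (a : L) = X (y : L) := by
      intro a ha ha1
      obtain ⟨k, rfl⟩ := hpowsurj a
      have h2 : (g ^ k) ^ m = 1 := (hmemO _).mp ha
      have h3 : 2 ^ A ∣ k := by
        have h4 : h ∣ k * m := by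
          rw [← hgord]
          apply orderOf_dvd_of_pow_eq_one
          rw [pow_mul]
          exact h2
        rw [hhdec] at h4
        have h5 : 2 ^ A * m ∣ k * m := h4
        exact Nat.dvd_of_mul_dvd_mul_right hm.pos h5
      obtain ⟨r, rfl⟩ := h3
      have h4 : g ^ (2 ^ A * r) = y ^ r := by rw [hy, pow_mul]
      rw [h4] at ha1 ⊢
      -- replace `r` by an odd exponent
      by_cases hr : Odd r
      · have h5 := S.value_odd_pow hX hG hdet y.2 hr (by
          rw [← Subgroup.coe_pow]
          exact (hcoe _).mpr ha1)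
        rw [Subgroup.coe_pow, h5]
      · have hr' : Odd (r + m) := (Nat.not_odd_iff_even.mp hr).add_odd hm
        have h6 : y ^ (r + m) = y ^ r := by rw [pow_add, hym, mul_one]
        have h5 := S.value_odd_pow hX hG hdet y.2 hr' (by
          rw [← Subgroup.coe_pow, h6]
          exact (hcoe _).mpr ha1)
        rw [← h6, Subgroup.coe_pow, h5]
    have hO1 : (1 : W₁) ∈ O := (hmemO 1).mpr (one_pow m)
    have hT2 : ∑ a ∈ O, X a * conj ((l a : ℂˣ) : ℂ) = X 1 - X (y : L) := by
      have h2 : ∀ a ∈ O, X a * conj ((l a : ℂˣ) : ℂ) =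
          X (y : L) * conj ((l a : ℂˣ) : ℂ) + (if a = 1 then X 1 - X (y : L) else 0) := by
        intro a ha
        split_ifs with h3
        · rw [h3]
          simp
        · rw [hin a ha h3, add_zero]
      rw [Finset.sum_congr rfl h2, Finset.sum_add_distrib, ← Finset.mul_sum, hT0, Finset.sum_ite_eq' O 1, if_pos hO1]
      ring
    have htot : ∑ a : W₁, X a * conj ((l a : ℂˣ) : ℂ) = X 1 - X (y : L) := by
      rw [← Finset.sum_filter_add_sum_filter_not Finset.univ (fun a => a ∈ O)]
      have h2 : Finset.univ.filter (fun a => a ∈ O) = O := by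
        ext a
        simp
      rw [h2, hT1, hT2, add_zero]
    obtain ⟨N, hN⟩ := hmult l
    rw [htot] at hN
    rcases S.value_sign hX hG hdet y.2 ((hcoe y).mpr hy1) with h2 | h2
    · refine ⟨1, N, Or.inl rfl, ?_⟩
      rw [h2] at hN
      simpa using hN
    · refine ⟨-1, N, Or.inr rfl, ?_⟩
      rw [h2] at hN
      simpa using hN

end Cfsg.Agent.Lib.Coprime.CycCent
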