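import Mathlib
import Cfsg.Agent.Lib.Coprime.TwoDegrees
import Cfsg.Agent.Lib.Coprime.TaketaStep
import Cfsg.Agent.Lib.Char.Product
import Cfsg.Agent.Lib.CharExtra.Central
import Cfsg.Agent.Lib.Degree.Cod

/-!
# `p`-groups whose irreducible character degrees are `1` and `p`

Such a group has an abelian normal subgroup of index `p`, or its centre has index `p ^ 3`.
-/

set_option autoImplicit false
set_option linter.style.haveILetI false
set_option linter.unusedSectionVars false
set_option linter.unusedSimpArgs false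
set_option linter.unnecessarySimpa false
set_option linter.unusedVariables false

open scoped ComplexConjugate Pointwise
open Cfsg Cfsg.Agent.Lib.Char
open Cfsg.Agent.Lib.Degree (KerContains inflate inflate_apply inflate_kerContains exists_inflate)

namespace Cfsg.Agent.Lib.Coprime

universe u

section Helpers

variable {X : Type u} [Group X] [Finite X] {p : ℕ} [hp : Fact p.Prime]

/-- A homomorphism to the complex units is injective on the powers of an element of order `p`. -/
theorem inj_zpowers {B : Subgroup X} (l : B →* ℂˣ) {n : X} (hnB : n ∈ B) (hnp : n ^ p = 1)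
    (hl : l ⟨n, hnB⟩ ≠ 1) (y : B) (hy : (y : X) ∈ Subgroup.zpowers n) (hly : l y = 1) :
    (y : X) = 1 := by
  obtain ⟨k, hk⟩ : ∃ k : ℕ, n ^ k = (y : X) :=
    (Submonoid.mem_powers_iff _ _).mp (mem_powers_iff_mem_zpowers.mpr hy)
  have h1 : y = (⟨n, hnB⟩ : B) ^ k := by
    apply Subtype.ext
    rw [← hk]
    rfl
  by_cases hpk : p ∣ k
  · obtain ⟨j, rfl⟩ := hpk
    rw [← hk, pow_mul, hnp, one_pow]
  · exfalso
    rw [h1, map_pow] at hly
    have h2 : (l ⟨n, hnB⟩) ^ p = 1 := by
      rw [← map_pow]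
      have : (⟨n, hnB⟩ : B) ^ p = 1 := Subtype.ext hnp
      rw [this, map_one]
    have h3 : orderOf (l ⟨n, hnB⟩) ∣ Nat.gcd k p :=
      Nat.dvd_gcd (orderOf_dvd_of_pow_eq_one hly) (orderOf_dvd_of_pow_eq_one h2)
    have h4 : Nat.gcd k p = 1 := by
      have := (Nat.Prime.coprime_iff_not_dvd hp.out).mpr hpk
      rw [Nat.gcd_comm]
      exact this
    rw [h4, Nat.dvd_one, orderOf_eq_one_iff] at h3
    exact hl h3

/-- An element of the inertia group commutes when its commutators lie in the powers of `n`. -/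
theorem comm_of_mem_inertia {B : Subgroup X} (hB : B.Normal) (l : B →* ℂˣ) {n x g : X}
    (hnB : n ∈ B) (hx : x ∈ B) (hnp : n ^ p = 1) (hl : l ⟨n, hnB⟩ ≠ 1)
    (hg : g ∈ inertia hB (fnOf l)) (hc : g * x * g⁻¹ * x⁻¹ ∈ Subgroup.zpowers n) :
    g * x = x * g := by
  have h1 : l ⟨g * x * g⁻¹, hB.conj_mem x hx g⟩ = l ⟨x, hx⟩ := by
    have := (mem_inertia_fnOf hB g l).mp hg
    exact congrArg (fun m : B →* ℂˣ => m ⟨x, hx⟩) this
  let y : B := ⟨g * x * g⁻¹, hB.conj_mem x hx g⟩ * (⟨x, hx⟩ : B)⁻¹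
  have h2 : l y = 1 := by
    simp only [y, map_mul, map_inv, h1, mul_inv_cancel]
  have h3 := inj_zpowers l hnB hnp hl y hc h2
  have h4 : g * x * g⁻¹ * x⁻¹ = 1 := h3
  rw [mul_inv_eq_one, mul_inv_eq_iff_eq_mul] at h4
  exact h4

/-- Two nontrivial elements: a dual element nontrivial on both. -/
theorem exists_dual_ne_one₂ {B : Subgroup X} (hab : ∀ a ∈ B, ∀ b ∈ B, a * b = b * a) (a b : B)
    (ha : a ≠ 1) (hb : b ≠ 1) : ∃ l : B →* ℂˣ, l a ≠ 1 ∧ l b ≠ 1 := by
  obtain ⟨l₁, h₁⟩ := exists_dual_ne_one hab a ha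
  obtain ⟨l₂, h₂⟩ := exists_dual_ne_one hab b hb
  by_cases h3 : l₁ b = 1
  · by_cases h4 : l₂ a = 1
    · refine ⟨l₁ * l₂, ?_, ?_⟩
      · simp [h4, h₁]
      · simp [h3, h₂]
    · exact ⟨l₂, h4, h₂⟩
  · exact ⟨l₁, h₁, h3⟩

/-- The index of an inertia group of a linear character is at most the maximal degree. -/
theorem inertia_index_le_of_degrees {B : Subgroup X} (hB : B.Normal) (l : B →* ℂˣ) {d : ℕ}
    (hdeg : ∀ χ : IrrCharacter X, charDegree (χ : X → ℂ) ≤ d) :
    (inertia hB (fnOf l)).index ≤ d := by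
  classical
  haveI := Fintype.ofFinite X
  haveI : Fintype B := Fintype.ofFinite B
  obtain ⟨χ, hχ, hcon⟩ := Cfsg.Agent.Lib.CharExtra.exists_irr_over B (fnOf_isIrr l)
  have h1 := Cfsg.Agent.Lib.CharExtra.inertia_index_mul_degree_dvd B hB hχ (fnOf_isIrr l) hcon
  have h2 : charDegree (fnOf l) = 1 := charDegree_natCast (n := 1) (by simp [fnOf])
  rw [h2, mul_one] at h1
  exact (Nat.le_of_dvd (charDegree_pos_of_irr hχ) h1).trans (hdeg ⟨χ, hχ⟩)

/-- In a `p`-group a subgroup at the bottom of a strict chain has index larger than `p`. -/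
theorem index_lt_of_chain (hX : IsPGroup p X) {H J : Subgroup X} (hHJ : H ≤ J) (hne : ¬ J ≤ H)
    (hJ : J ≠ ⊤) : p < H.index := by
  have hpp : p.Prime := hp.out
  obtain ⟨a, ha⟩ := IsPGroup.iff_card.mp hX
  have h1 := Subgroup.relIndex_mul_index hHJ
  have h2 : J.index ∣ p ^ a := by
    rw [← ha]
    exact Subgroup.index_dvd_card J
  have h3 : H.relIndex J ∣ p ^ a := by
    rw [← ha]
    exact (Subgroup.relIndex_dvd_card H J).trans (Subgroup.card_subgroup_dvd_card J)
  obtain ⟨j, -, hj⟩ := (Nat.dvd_prime_pow hpp).mp h2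
  obtain ⟨k, -, hk⟩ := (Nat.dvd_prime_pow hpp).mp h3
  have hj0 : j ≠ 0 := by
    rintro rfl
    rw [pow_zero] at hj
    exact hJ (Subgroup.index_eq_one.mp hj)
  have hk0 : k ≠ 0 := by
    rintro rfl
    rw [pow_zero] at hk
    exact hne (Subgroup.relIndex_eq_one.mp hk)
  rw [← h1, hj, hk, ← pow_add]
  calc p = p ^ 1 := (pow_one p).symm
    _ < p ^ (k + j) := Nat.pow_lt_pow_right hpp.one_lt (by omega)

/-- A homomorphism out of commutators with an element. -/
noncomputable def cmtHom (u : X) (hu : ∀ g : X, g * u * g⁻¹ * u⁻¹ ∈ Subgroup.center X) :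
    X →* Subgroup.center X :=
  MonoidHom.mk' (fun g => ⟨g * u * g⁻¹ * u⁻¹, hu g⟩) (by
    intro g h
    apply Subtype.ext
    show g * h * u * (g * h)⁻¹ * u⁻¹ = g * u * g⁻¹ * u⁻¹ * (h * u * h⁻¹ * u⁻¹)
    have hc := Subgroup.mem_center_iff.mp (hu h)
    have h1 : h * u * h⁻¹ = (h * u * h⁻¹ * u⁻¹) * u := by group
    calc g * h * u * (g * h)⁻¹ * u⁻¹ = g * (h * u * h⁻¹) * g⁻¹ * u⁻¹ := by group
      _ = g * ((h * u * h⁻¹ * u⁻¹) * u) * g⁻¹ * u⁻¹ := by rw [← h1]
      _ = (g * (h * u * h⁻¹ * u⁻¹)) * u * g⁻¹ * u⁻¹ := by group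
      _ = ((h * u * h⁻¹ * u⁻¹) * g) * u * g⁻¹ * u⁻¹ := by rw [hc g]
      _ = (h * u * h⁻¹ * u⁻¹) * (g * u * g⁻¹ * u⁻¹) := by group
      _ = g * u * g⁻¹ * u⁻¹ * (h * u * h⁻¹ * u⁻¹) := (hu h |> Subgroup.mem_center_iff.mp) _ |>.symm)

theorem cmtHom_ker (u : X) (hu : ∀ g : X, g * u * g⁻¹ * u⁻¹ ∈ Subgroup.center X) :
    (cmtHom u hu).ker = Subgroup.centralizer {u} := by
  ext g
  rw [MonoidHom.mem_ker, Subgroup.mem_centralizer_singleton_iff]
  constructor
  · intro h
    have h1 : g * u * g⁻¹ * u⁻¹ = 1 := congrArg Subtype.val h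
    rw [mul_inv_eq_one, mul_inv_eq_iff_eq_mul] at h1
    exact h1
  · intro h
    apply Subtype.ext
    show g * u * g⁻¹ * u⁻¹ = 1
    rw [mul_inv_eq_one, mul_inv_eq_iff_eq_mul]
    exact h

/-- The powers of a central element of order `p` give centralizers of index dividing `p`. -/
theorem centralizer_index_facts (u : X) {n : X} (hn : n ∈ Subgroup.center X) (hnp : n ^ p = 1)
    (hn1 : n ≠ 1) (hu : ∀ g : X, g * u * g⁻¹ * u⁻¹ ∈ Subgroup.zpowers n) :
    (Subgroup.centralizer {u} : Subgroup X).Normal ∧ (Subgroup.centralizer {u} : Subgroup X).index ∣ p := by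
  have hle : Subgroup.zpowers n ≤ Subgroup.center X := by
    rw [Subgroup.zpowers_le]
    exact hn
  have hu' : ∀ g : X, g * u * g⁻¹ * u⁻¹ ∈ Subgroup.center X := fun g => hle (hu g)
  have hk := cmtHom_ker u hu'
  refine ⟨hk ▸ MonoidHom.normal_ker _, ?_⟩
  rw [← hk, Subgroup.index_ker]
  let n' : Subgroup.center X := ⟨n, hn⟩
  have hn'p : n' ^ p = 1 := Subtype.ext hnp
  have hn'1 : n' ≠ 1 := fun h => hn1 (congrArg Subtype.val h)
  have hord : orderOf n' = p := orderOf_eq_prime hn'p hn'1
  have h1 : (cmtHom u hu').range ≤ Subgroup.zpowers n' := by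
    rintro _ ⟨g, rfl⟩
    obtain ⟨k, hk'⟩ := Subgroup.mem_zpowers_iff.mp (hu g)
    refine Subgroup.mem_zpowers_iff.mpr ⟨k, ?_⟩
    apply Subtype.ext
    exact hk'
  have h2 := Subgroup.card_dvd_of_le h1
  rwa [Nat.card_zpowers, hord] at h2

/-- Elements of prime order: a nontrivial power generates. -/
theorem mem_zpowers_of_mem {n x : X} (hnp : n ^ p = 1) (hn1 : n ≠ 1)
    (hx : x ∈ Subgroup.zpowers n) (hx1 : x ≠ 1) : n ∈ Subgroup.zpowers x := by
  have hord : orderOf n = p := orderOf_eq_prime hnp hn1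
  have hle : Subgroup.zpowers x ≤ Subgroup.zpowers n := by
    rw [Subgroup.zpowers_le]
    exact hx
  have h1 : Nat.card (Subgroup.zpowers x) ∣ Nat.card (Subgroup.zpowers n) := Subgroup.card_dvd_of_le hle
  rw [Nat.card_zpowers, Nat.card_zpowers, hord, Nat.dvd_prime hp.out] at h1
  have hne : orderOf x ≠ 1 := by
    intro h
    exact hx1 (orderOf_eq_one_iff.mp h)
  have h2 : orderOf x = p := h1.resolve_left hne
  have h3 : Subgroup.zpowers x = Subgroup.zpowers n := by
    apply Subgroup.eq_of_le_of_card_ge hle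
    rw [Nat.card_zpowers, Nat.card_zpowers, hord, h2]
  rw [h3]
  exact Subgroup.mem_zpowers n

/-- Central elements of order `p` in a nontrivial normal subgroup. -/
theorem exists_central_prime_order (hX : IsPGroup p X) (M : Subgroup X) (hM : M.Normal) (hne : M ≠ ⊥) :
    ∃ n ∈ M, n ∈ Subgroup.center X ∧ n ^ p = 1 ∧ n ≠ 1 := by
  classical
  obtain ⟨z, hzM, hzc, hz1⟩ := exists_mem_center_of_normal hX M hM hne
  obtain ⟨k, hk⟩ := hX z
  have hex : ∃ k, z ^ p ^ k = 1 := ⟨k, hk⟩
  have hk0 : Nat.find hex ≠ 0 := by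
    intro h
    have := Nat.find_spec hex
    rw [h, pow_zero, pow_one] at this
    exact hz1 this
  obtain ⟨j, hj⟩ := Nat.exists_eq_succ_of_ne_zero hk0
  have h2 : z ^ p ^ j ≠ 1 := Nat.find_min hex (by omega)
  refine ⟨z ^ p ^ j, M.pow_mem hzM _, (Subgroup.center X).pow_mem hzc _, ?_, h2⟩
  have := Nat.find_spec hex
  rw [hj, pow_succ, pow_mul] at this
  exact this

/-- The degrees of a normal subgroup are bounded by those of the group. -/
theorem deg_le_of_normal (H : Subgroup X) (hH : H.Normal) {d : ℕ}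
    (hdeg : ∀ χ : IrrCharacter X, charDegree (χ : X → ℂ) ≤ d) (θ : IrrCharacter H) :
    charDegree (θ : H → ℂ) ≤ d := by
  classical
  haveI := Fintype.ofFinite X
  haveI : Fintype H := Fintype.ofFinite H
  obtain ⟨χ, hχ, hd⟩ := exists_degree_dvd_of_normal H hH θ.2
  exact (Nat.le_of_dvd (charDegree_pos_of_irr hχ) hd).trans (hdeg ⟨χ, hχ⟩)

/-- The degrees of a quotient are bounded by those of the group. -/
theorem deg_le_of_surjective {Y : Type*} [Group Y] (f : X →* Y) (hf : Function.Surjective f) {d : ℕ}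
    (hdeg : ∀ χ : IrrCharacter X, charDegree (χ : X → ℂ) ≤ d) (θ : IrrCharacter Y) :
    charDegree (θ : Y → ℂ) ≤ d := by
  have := hdeg ⟨_, isIrr_comp_surjective f hf θ.2⟩
  simpa only [charDegree_comp_monoidHom] using this

end Helpers

section Main

variable {X : Type u} [Group X] [Finite X] {p : ℕ} [hp : Fact p.Prime]

/-- A class-two group with commutator subgroup of order `p` and degrees at most `p`. -/
theorem center_index_le_sq (hX : IsPGroup p X)
    (hdeg : ∀ χ : IrrCharacter X, charDegree (χ : X → ℂ) ≤ p) {n : X}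
    (hn : n ∈ Subgroup.center X) (hnp : n ^ p = 1) (hn1 : n ≠ 1)
    (hc : ∀ g h : X, g * h * g⁻¹ * h⁻¹ ∈ Subgroup.zpowers n) : (Subgroup.center X).index ≤ p ^ 2 := by
  classical
  by_contra hlt
  push Not at hlt
  have hfact := fun u => centralizer_index_facts (p := p) u hn hnp hn1 (fun g => hc g u)
  have hple : ∀ u : X, (Subgroup.centralizer {u} : Subgroup X).index ≤ p := fun u =>
    Nat.le_of_dvd hp.out.pos (hfact u).2
  obtain ⟨u, v, huv⟩ : ∃ u v : X, v * u ≠ u * v := by
    by_contra hall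
    push Not at hall
    have h1 : Subgroup.center X = ⊤ := by
      rw [eq_top_iff]
      intro g _
      rw [Subgroup.mem_center_iff]
      exact fun h => hall g h
    rw [h1, Subgroup.index_top] at hlt
    have := pow_pos hp.out.pos 2
    omega
  set C₁ : Subgroup X := Subgroup.centralizer {u} with hC₁
  set C₂ : Subgroup X := Subgroup.centralizer {v} with hC₂
  have hC : (C₁ ⊓ C₂).index ≤ p ^ 2 := by
    calc (C₁ ⊓ C₂).index ≤ C₁.index * C₂.index := Subgroup.index_inf_le
      _ ≤ p * p := Nat.mul_le_mul (hple u) (hple v)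
      _ = p ^ 2 := (pow_two p).symm
  have hZC : Subgroup.center X ≤ C₁ ⊓ C₂ := by
    intro z hz
    have := Subgroup.mem_center_iff.mp hz
    refine ⟨Subgroup.mem_centralizer_singleton_iff.mpr (this u).symm,
      Subgroup.mem_centralizer_singleton_iff.mpr (this v).symm⟩
  obtain ⟨c, hcC, hcZ⟩ : ∃ c ∈ C₁ ⊓ C₂, c ∉ Subgroup.center X := by
    by_contra hall
    push Not at hall
    have h1 : C₁ ⊓ C₂ = Subgroup.center X := le_antisymm hall hZC
    rw [h1] at hC
    omega
  have hcu : c * u = u * c := Subgroup.mem_centralizer_singleton_iff.mp hcC.1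
  have hcv : c * v = v * c := Subgroup.mem_centralizer_singleton_iff.mp hcC.2
  set Cc : Subgroup X := Subgroup.centralizer {c} with hCc
  haveI hC₁n : C₁.Normal := (hfact u).1
  haveI hCcn : Cc.Normal := (hfact c).1
  set D : Subgroup X := C₁ ⊓ Cc with hD
  haveI hDn : D.Normal := Subgroup.normal_inf_normal _ _
  set B : Subgroup X := Subgroup.centralizer (D : Set X) with hB
  haveI hBn : B.Normal := Subgroup.normal_centralizer
  have huD : u ∈ D := ⟨Subgroup.mem_centralizer_singleton_iff.mpr rfl,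
    Subgroup.mem_centralizer_singleton_iff.mpr hcu.symm⟩
  have hcD : c ∈ D := ⟨hcC.1, Subgroup.mem_centralizer_singleton_iff.mpr rfl⟩
  have hBm : ∀ y, (∀ h ∈ D, h * y = y * h) → y ∈ B := fun y hy =>
    Subgroup.mem_centralizer_iff.mpr hy
  have huB : u ∈ B := hBm u fun h hh => Subgroup.mem_centralizer_singleton_iff.mp hh.1
  have hcB : c ∈ B := hBm c fun h hh => Subgroup.mem_centralizer_singleton_iff.mp hh.2
  have hnB : n ∈ B := hBm n fun h _ => (Subgroup.mem_center_iff.mp hn h)
  have hab : ∀ a ∈ B, ∀ b ∈ B, a * b = b * a := by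
    intro a ha b hb
    have haD : a ∈ D := by
      refine ⟨Subgroup.mem_centralizer_singleton_iff.mpr ?_, Subgroup.mem_centralizer_singleton_iff.mpr ?_⟩
      · exact ((Subgroup.mem_centralizer_iff.mp ha) u huD).symm
      · exact ((Subgroup.mem_centralizer_iff.mp ha) c hcD).symm
    exact (Subgroup.mem_centralizer_iff.mp hb) a haD
  obtain ⟨l, hl⟩ := exists_dual_ne_one hab ⟨n, hnB⟩ (fun h => hn1 (congrArg Subtype.val h))
  have hT : inertia hBn (fnOf l) ≤ D := by
    intro g hg
    refine ⟨Subgroup.mem_centralizer_singleton_iff.mpr ?_, Subgroup.mem_centralizer_singleton_iff.mpr ?_⟩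
    · exact comm_of_mem_inertia hBn l hnB huB hnp hl hg (hc g u)
    · exact comm_of_mem_inertia hBn l hnB hcB hnp hl hg (hc g c)
  have h1 : p < D.index := by
    refine index_lt_of_chain hX (J := Cc) inf_le_right ?_ ?_
    · intro h
      have h2 : v ∈ Cc := Subgroup.mem_centralizer_singleton_iff.mpr hcv.symm
      exact huv (Subgroup.mem_centralizer_singleton_iff.mp (h h2).1)
    · intro h
      apply hcZ
      rw [Subgroup.mem_center_iff]
      intro g
      have h2 : g ∈ Cc := by
        rw [h]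
        exact Subgroup.mem_top g
      exact Subgroup.mem_centralizer_singleton_iff.mp h2
  have h2 := inertia_index_le_of_degrees hBn l hdeg
  have h3 : D.index ∣ (inertia hBn (fnOf l)).index := Subgroup.index_dvd_of_le hT
  have h4 := Nat.le_of_dvd (Nat.pos_of_ne_zero (Subgroup.index_ne_zero_of_finite)) h3
  omega

/-- The case of an abelian subgroup of index `p` modulo a central subgroup of order `p`. -/
theorem center_index_le_cube (hX : IsPGroup p X)
    (hdeg : ∀ χ : IrrCharacter X, charDegree (χ : X → ℂ) ≤ p) {n : X}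
    (hn : n ∈ Subgroup.center X) (hnp : n ^ p = 1) (hn1 : n ≠ 1) (A : Subgroup X) [hAn : A.Normal]
    (hAi : A.index = p) (hAc : ∀ a ∈ A, ∀ b ∈ A, a * b * a⁻¹ * b⁻¹ ∈ Subgroup.zpowers n)
    (hAnc : ¬ ∀ a ∈ A, ∀ b ∈ A, a * b = b * a) : (Subgroup.center X).index ≤ p ^ 3 := by
  classical
  -- `n` lies in `A`
  have hnA : n ∈ A := by
    push Not at hAnc
    obtain ⟨a, ha, b, hb, hab⟩ := hAnc
    have h1 : a * b * a⁻¹ * b⁻¹ ≠ 1 := by
      intro h
      rw [mul_inv_eq_one, mul_inv_eq_iff_eq_mul] at h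
      exact hab h
    have h2 := mem_zpowers_of_mem hnp hn1 (hAc a ha b hb) h1
    have h3 : Subgroup.zpowers (a * b * a⁻¹ * b⁻¹) ≤ A := by
      rw [Subgroup.zpowers_le]
      exact A.mul_mem (A.mul_mem (A.mul_mem ha hb) (A.inv_mem ha)) (A.inv_mem hb)
    exact h3 h2
  -- the second centre bound
  have hsq : (Subgroup.center A).index ≤ p ^ 2 := by
    let n' : A := ⟨n, hnA⟩
    refine center_index_le_sq (hX.to_subgroup A) (deg_le_of_normal A hAn hdeg) (n := n') ?_ ?_ ?_ ?_
    · rw [Subgroup.mem_center_iff]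
      intro g
      apply Subtype.ext
      exact Subgroup.mem_center_iff.mp hn g
    · exact Subtype.ext hnp
    · exact fun h => hn1 (congrArg Subtype.val h)
    · intro g h
      obtain ⟨k, hk⟩ := Subgroup.mem_zpowers_iff.mp (hAc g g.2 h h.2)
      refine Subgroup.mem_zpowers_iff.mpr ⟨k, ?_⟩
      apply Subtype.ext
      exact hk
  set B : Subgroup X := A ⊓ Subgroup.centralizer (A : Set X) with hB
  haveI hBn : B.Normal := Subgroup.normal_inf_normal _ _
  have hBm : ∀ y, y ∈ B ↔ y ∈ A ∧ ∀ a ∈ A, a * y = y * a := fun y => by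
    rw [hB, Subgroup.mem_inf, Subgroup.mem_centralizer_iff]
    rfl
  have hBidx : B.index ≤ p ^ 3 := by
    have h1 : B.subgroupOf A = Subgroup.center A := by
      ext x
      rw [Subgroup.mem_subgroupOf, hBm, Subgroup.mem_center_iff]
      constructor
      · rintro ⟨-, h⟩ g
        apply Subtype.ext
        exact h g g.2
      · intro h
        refine ⟨x.2, fun a ha => ?_⟩
        exact congrArg Subtype.val (h ⟨a, ha⟩)
    have h2 : B.relIndex A = (Subgroup.center A).index := by
      rw [Subgroup.relIndex, h1]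
    have h3 := Subgroup.relIndex_mul_index (inf_le_left : B ≤ A)
    rw [← h3, h2, hAi]
    calc (Subgroup.center A).index * p ≤ p ^ 2 * p := Nat.mul_le_mul_right p hsq
      _ = p ^ 3 := by ring
  suffices hBZ : B ≤ Subgroup.center X by
    have h1 : (Subgroup.center X).index ∣ B.index := Subgroup.index_dvd_of_le hBZ
    exact (Nat.le_of_dvd (Nat.pos_of_ne_zero Subgroup.index_ne_zero_of_finite) h1).trans hBidx
  by_contra hBZ
  -- a central element modulo the centre
  obtain ⟨b, hbB, hbZ, hbc⟩ : ∃ b ∈ B, b ∉ Subgroup.center X ∧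
      ∀ g : X, g * b * g⁻¹ * b⁻¹ ∈ Subgroup.center X := by
    let π := QuotientGroup.mk' (Subgroup.center X)
    have hπ : Function.Surjective π := QuotientGroup.mk'_surjective _
    have hM : (B.map π).Normal := hBn.map π hπ
    have hne : B.map π ≠ ⊥ := by
      intro h
      apply hBZ
      intro y hy
      have h1 : π y ∈ B.map π := Subgroup.mem_map_of_mem π hy
      rw [h, Subgroup.mem_bot] at h1
      exact (QuotientGroup.eq_one_iff y).mp h1
    obtain ⟨z, hzM, hzc, hz1⟩ := exists_mem_center_of_normal (hX.to_quotient _) _ hM hne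
    obtain ⟨b, hb, rfl⟩ := hzM
    refine ⟨b, hb, ?_, ?_⟩
    · intro h
      exact hz1 ((QuotientGroup.eq_one_iff b).mpr h)
    · intro g
      rw [← QuotientGroup.eq_one_iff]
      have h1 := Subgroup.mem_center_iff.mp hzc (π g)
      show π (g * b * g⁻¹ * b⁻¹) = 1
      simp only [map_mul, map_inv]
      rw [h1]
      group
  -- a central element modulo `B`
  obtain ⟨a, haA, haB, hac⟩ : ∃ a ∈ A, a ∉ B ∧ ∀ g : X, g * a * g⁻¹ * a⁻¹ ∈ B := by
    let π := QuotientGroup.mk' B
    have hπ : Function.Surjective π := QuotientGroup.mk'_surjective _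
    have hM : (A.map π).Normal := hAn.map π hπ
    have hne : A.map π ≠ ⊥ := by
      intro h
      apply hAnc
      intro x hx y hy
      have h1 : π y ∈ A.map π := Subgroup.mem_map_of_mem π hy
      rw [h, Subgroup.mem_bot] at h1
      exact ((hBm y).mp ((QuotientGroup.eq_one_iff y).mp h1)).2 x hx
    obtain ⟨z, hzM, hzc, hz1⟩ := exists_mem_center_of_normal (hX.to_quotient _) _ hM hne
    obtain ⟨a, ha, rfl⟩ := hzM
    refine ⟨a, ha, ?_, ?_⟩
    · intro h
      exact hz1 ((QuotientGroup.eq_one_iff a).mpr h)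
    · intro g
      rw [← QuotientGroup.eq_one_iff]
      have h1 := Subgroup.mem_center_iff.mp hzc (π g)
      show π (g * a * g⁻¹ * a⁻¹) = 1
      simp only [map_mul, map_inv]
      rw [h1]
      group
  -- the element `x₀`
  obtain ⟨x₀, hx₀⟩ : ∃ x₀, x₀ * b ≠ b * x₀ := by
    by_contra hall
    push Not at hall
    exact hbZ (Subgroup.mem_center_iff.mpr hall)
  have hbA : ∀ a' ∈ A, a' * b = b * a' := ((hBm b).mp hbB).2
  have hwB : x₀ * b * x₀⁻¹ * b⁻¹ ∈ B := B.mul_mem (hBn.conj_mem b hbB x₀) (B.inv_mem hbB)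
  have hw1 : x₀ * b * x₀⁻¹ * b⁻¹ ≠ 1 := by
    intro h
    rw [mul_inv_eq_one, mul_inv_eq_iff_eq_mul] at h
    exact hx₀ h
  -- the normal abelian subgroup
  set A₁ : Subgroup X := Subgroup.zpowers a ⊔ B with hA₁
  have hza : ∀ s ∈ Subgroup.zpowers a, s ∈ A := by
    intro s hs
    have h1 : Subgroup.zpowers a ≤ A := by
      rw [Subgroup.zpowers_le]
      exact haA
    exact h1 hs
  have hA₁c : ∀ x ∈ A₁, ∀ y ∈ A₁, x * y = y * x := by
    intro x hx y hy
    obtain ⟨s, hs, t, ht, rfl⟩ := Subgroup.mem_sup_of_normal_right.mp hx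
    obtain ⟨s', hs', t', ht', rfl⟩ := Subgroup.mem_sup_of_normal_right.mp hy
    have h1 : s * s' = s' * s := by
      obtain ⟨i, rfl⟩ := Subgroup.mem_zpowers_iff.mp hs
      obtain ⟨j, rfl⟩ := Subgroup.mem_zpowers_iff.mp hs'
      exact (Commute.refl a).zpow_zpow i j
    have h2 : s' * t = t * s' := ((hBm t).mp ht).2 s' (hza s' hs')
    have h3 : s * t' = t' * s := ((hBm t').mp ht').2 s (hza s hs)
    have h4 : t * t' = t' * t := ((hBm t').mp ht').2 t ((hBm t).mp ht).1
    calc s * t * (s' * t') = s * (t * s') * t' := by group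
      _ = s * (s' * t) * t' := by rw [h2]
      _ = (s * s') * (t * t') := by group
      _ = (s' * s) * (t' * t) := by rw [h1, h4]
      _ = s' * (s * t') * t := by group
      _ = s' * (t' * s) * t := by rw [h3]
      _ = s' * t' * (s * t) := by group
  have hA₁n : A₁.Normal := by
    refine ⟨fun x hx g => ?_⟩
    obtain ⟨s, hs, t, ht, rfl⟩ := Subgroup.mem_sup_of_normal_right.mp hx
    have h1 : g * (s * t) * g⁻¹ = (g * s * g⁻¹) * (g * t * g⁻¹) := by group
    rw [h1]
    refine A₁.mul_mem ?_ ((le_sup_right : B ≤ A₁) (hBn.conj_mem t ht g))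
    obtain ⟨i, rfl⟩ := Subgroup.mem_zpowers_iff.mp hs
    rw [← conj_zpow]
    apply A₁.zpow_mem
    have h2 : g * a * g⁻¹ = (g * a * g⁻¹ * a⁻¹) * a := by group
    rw [h2]
    exact A₁.mul_mem ((le_sup_right : B ≤ A₁) (hac g))
      ((le_sup_left : Subgroup.zpowers a ≤ A₁) (Subgroup.mem_zpowers a))
  have haA₁ : a ∈ A₁ := (le_sup_left : Subgroup.zpowers a ≤ A₁) (Subgroup.mem_zpowers a)
  have hbA₁ : b ∈ A₁ := (le_sup_right : B ≤ A₁) hbB
  have hwA₁ : x₀ * b * x₀⁻¹ * b⁻¹ ∈ A₁ := (le_sup_right : B ≤ A₁) hwB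
  have hnB : n ∈ B := (hBm n).mpr ⟨hnA, fun a' _ => Subgroup.mem_center_iff.mp hn a'⟩
  have hnA₁ : n ∈ A₁ := (le_sup_right : B ≤ A₁) hnB
  obtain ⟨l, hlw, hln⟩ := exists_dual_ne_one₂ hA₁c ⟨_, hwA₁⟩ ⟨n, hnA₁⟩
    (fun h => hw1 (congrArg Subtype.val h)) (fun h => hn1 (congrArg Subtype.val h))
  set T := inertia hA₁n (fnOf l) with hT
  -- the commutator homomorphism
  have hbcA : ∀ g : X, g * b * g⁻¹ * b⁻¹ ∈ A₁ := fun g =>
    (le_sup_right : B ≤ A₁) (B.mul_mem (hBn.conj_mem b hbB g) (B.inv_mem hbB))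
  let f' : X →* A₁ := MonoidHom.mk' (fun g => ⟨g * b * g⁻¹ * b⁻¹, hbcA g⟩) (by
    intro g h
    apply Subtype.ext
    have := congrArg Subtype.val (map_mul (cmtHom b hbc) g h)
    exact this)
  let KL : Subgroup X := (l.comp f').ker
  have hAKL : A ≤ KL := by
    intro a' ha'
    rw [MonoidHom.mem_ker]
    have h1 : f' a' = 1 := by
      apply Subtype.ext
      show a' * b * a'⁻¹ * b⁻¹ = 1
      rw [hbA a' ha']
      group
    simp [h1]
  have hx₀KL : x₀ ∉ KL := by
    rw [MonoidHom.mem_ker]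
    exact hlw
  have hKLA : KL ≤ A := by
    have h1 : KL.index ∣ A.index := Subgroup.index_dvd_of_le hAKL
    rw [hAi, Nat.dvd_prime hp.out] at h1
    rcases h1 with h1 | h1
    · exfalso
      rw [Subgroup.index_eq_one] at h1
      rw [h1] at hx₀KL
      exact hx₀KL (Subgroup.mem_top _)
    · have h2 := Subgroup.relIndex_mul_index hAKL
      rw [h1, hAi] at h2
      have h3 : A.relIndex KL = 1 := Nat.eq_of_mul_eq_mul_right hp.out.pos (by rw [h2, one_mul])
      exact Subgroup.relIndex_eq_one.mp h3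
  have hTKL : T ≤ KL := by
    intro g hg
    rw [MonoidHom.mem_ker]
    have h1 : l ⟨g * b * g⁻¹, hA₁n.conj_mem b hbA₁ g⟩ = l ⟨b, hbA₁⟩ := by
      have := (mem_inertia_fnOf hA₁n g l).mp hg
      exact congrArg (fun m : A₁ →* ℂˣ => m ⟨b, hbA₁⟩) this
    have h2 : f' g = ⟨g * b * g⁻¹, hA₁n.conj_mem b hbA₁ g⟩ * (⟨b, hbA₁⟩ : A₁)⁻¹ := rfl
    show l (f' g) = 1
    rw [h2, map_mul, map_inv, h1, mul_inv_cancel]
  have hTD : T ≤ A ⊓ Subgroup.centralizer {a} := by
    intro g hg
    have hgA : g ∈ A := hKLA (hTKL hg)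
    refine ⟨hgA, Subgroup.mem_centralizer_singleton_iff.mpr ?_⟩
    exact comm_of_mem_inertia hA₁n l hnA₁ haA₁ hnp hln hg (hAc g hgA a haA)
  have h1 : p < (A ⊓ Subgroup.centralizer {a}).index := by
    refine index_lt_of_chain hX (J := A) inf_le_left ?_ ?_
    · intro h
      apply haB
      refine (hBm a).mpr ⟨haA, fun a' ha' => ?_⟩
      exact Subgroup.mem_centralizer_singleton_iff.mp (h ha').2
    · intro h
      rw [h, Subgroup.index_top] at hAi
      exact hp.out.one_lt.ne hAi
  have h2 : T.index ≤ p := inertia_index_le_of_degrees hA₁n l hdeg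
  have h3 : (A ⊓ Subgroup.centralizer {a}).index ∣ T.index := Subgroup.index_dvd_of_le hTD
  have h4 := Nat.le_of_dvd (Nat.pos_of_ne_zero (Subgroup.index_ne_zero_of_finite)) h3
  omega

/-- The quotient step. -/
theorem exists_z_of_quot
    (hIH : ∀ (Y : Type u) [Group Y] [Finite Y], Nat.card Y < Nat.card X → IsPGroup p Y →
      (∀ χ : IrrCharacter Y, charDegree (χ : Y → ℂ) ≤ p) → (∃ a b : Y, a * b ≠ b * a) →
      (∃ A : Subgroup Y, A.Normal ∧ (∀ a ∈ A, ∀ b ∈ A, a * b = b * a) ∧ A.index = p) ∨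
        (Subgroup.center Y).index = p ^ 3)
    (hX : IsPGroup p X) (hdeg : ∀ χ : IrrCharacter X, charDegree (χ : X → ℂ) ≤ p)
    (H0 : ¬ ∃ A : Subgroup X, A.Normal ∧ (∀ a ∈ A, ∀ b ∈ A, a * b = b * a) ∧ A.index = p)
    (hbig : p ^ 3 < (Subgroup.center X).index) {n : X}
    (hn : n ∈ Subgroup.center X) (hnp : n ^ p = 1) (hn1 : n ≠ 1) :
    ∃ z, z ∉ Subgroup.center X ∧ ∀ g, g * z * g⁻¹ * z⁻¹ ∈ Subgroup.zpowers n := by
  classical
  set N := Subgroup.zpowers n with hN
  have hNZ : N ≤ Subgroup.center X := by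
    rw [hN, Subgroup.zpowers_le]
    exact hn
  haveI hNn : N.Normal := by
    refine ⟨fun x hx g => ?_⟩
    rw [(Subgroup.mem_center_iff.mp (hNZ hx) g)]
    simpa using hx
  let π : X →* X ⧸ N := QuotientGroup.mk' N
  have hπ : Function.Surjective π := QuotientGroup.mk'_surjective N
  have hcomm : ∀ g h : X, π g * π h = π h * π g → g * h * g⁻¹ * h⁻¹ ∈ N := by
    intro g h hgh
    rw [← QuotientGroup.eq_one_iff]
    show π (g * h * g⁻¹ * h⁻¹) = 1
    simp only [map_mul, map_inv]
    rw [hgh]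
    group
  have hcard : Nat.card (X ⧸ N) < Nat.card X := by
    have h1 := Subgroup.card_mul_index N
    have h2 : Nat.card N = p := by
      rw [hN, Nat.card_zpowers]
      exact orderOf_eq_prime hnp hn1
    rw [h2] at h1
    have h3 : N.index = Nat.card (X ⧸ N) := rfl
    rw [h3] at h1
    rw [← h1]
    have h4 : 0 < Nat.card (X ⧸ N) := Nat.card_pos
    have := hp.out.one_lt
    nlinarith
  have hpos3 := pow_pos hp.out.pos 3
  by_cases habY : ∀ a b : X ⧸ N, a * b = b * a
  · exfalso
    have h1 := center_index_le_sq hX hdeg hn hnp hn1 (fun g h => hcomm g h (habY _ _))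
    have h2 : p ^ 2 ≤ p ^ 3 := Nat.pow_le_pow_right hp.out.pos (by omega)
    omega
  · push Not at habY
    obtain ⟨a₀, b₀, hab₀⟩ := habY
    rcases hIH (X ⧸ N) hcard (hX.to_quotient N) (deg_le_of_surjective π hπ hdeg) ⟨a₀, b₀, hab₀⟩ with
      ⟨Ab, hAbn, hAbc, hAbi⟩ | hZ
    · exfalso
      set A := Ab.comap π with hA
      haveI hAn : A.Normal := hAbn.comap π
      have hAi : A.index = p := by
        rw [hA, Subgroup.index_comap_of_surjective _ hπ, hAbi]
      have h1 := center_index_le_cube hX hdeg hn hnp hn1 A hAi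
        (fun a ha b hb => hcomm a b (hAbc _ ha _ hb))
        (fun h => H0 ⟨A, hAn, h, hAi⟩)
      omega
    · set Z₁ := (Subgroup.center (X ⧸ N)).comap π with hZ₁
      have hZ₁i : Z₁.index = p ^ 3 := by
        rw [hZ₁, Subgroup.index_comap_of_surjective _ hπ, hZ]
      have hle : Subgroup.center X ≤ Z₁ := by
        intro z hz
        rw [hZ₁, Subgroup.mem_comap, Subgroup.mem_center_iff]
        intro q
        obtain ⟨g, rfl⟩ := hπ q
        rw [← map_mul, ← map_mul, Subgroup.mem_center_iff.mp hz g]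
      obtain ⟨z, hzZ, hzc⟩ : ∃ z ∈ Z₁, z ∉ Subgroup.center X := by
        by_contra hall
        push Not at hall
        have h1 : Z₁ = Subgroup.center X := le_antisymm hall hle
        rw [h1] at hZ₁i
        omega
      refine ⟨z, hzc, fun g => hcomm g z ?_⟩
      exact (Subgroup.mem_center_iff.mp hzZ (π g))

/-- The powers of `n` are not in the commutator subgroup of the centralizer of `z`. -/
theorem not_mem_commutator_centralizer (hX : IsPGroup p X)
    (hdeg : ∀ χ : IrrCharacter X, charDegree (χ : X → ℂ) ≤ p) {n : X}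
    (hn : n ∈ Subgroup.center X) (hnp : n ^ p = 1) (hn1 : n ≠ 1) {z : X}
    (hzZ : z ∉ Subgroup.center X) (hz : ∀ g, g * z * g⁻¹ * z⁻¹ ∈ Subgroup.zpowers n) :
    n ∉ ⁅(Subgroup.centralizer {z} : Subgroup X), (Subgroup.centralizer {z} : Subgroup X)⁆ := by
  classical
  haveI := Fintype.ofFinite X
  set H : Subgroup X := Subgroup.centralizer {z} with hH
  obtain ⟨hHn, hHdvd⟩ := centralizer_index_facts (p := p) z hn hnp hn1 hz
  haveI : Fintype H := Fintype.ofFinite H
  haveI := hHn
  have hHtop : H ≠ ⊤ := by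
    intro h
    apply hzZ
    rw [Subgroup.mem_center_iff]
    intro g
    have h2 : g ∈ H := by
      rw [h]
      exact Subgroup.mem_top g
    exact Subgroup.mem_centralizer_singleton_iff.mp h2
  have hHi : H.index = p := by
    rw [Nat.dvd_prime hp.out] at hHdvd
    rcases hHdvd with h | h
    · exact absurd (Subgroup.index_eq_one.mp h) hHtop
    · exact h
  intro hnc
  have hZH : Subgroup.center X ≤ H := fun c hc =>
    Subgroup.mem_centralizer_singleton_iff.mpr (Subgroup.mem_center_iff.mp hc z).symm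
  have hnH : n ∈ H := hZH hn
  let n' : H := ⟨n, hnH⟩
  have hn'1 : n' ≠ 1 := fun h => hn1 (congrArg Subtype.val h)
  -- an irreducible character of `H` nontrivial on `n`
  obtain ⟨β, hβ⟩ : ∃ β : IrrCharacter H, (β : H → ℂ) n' ≠ (β : H → ℂ) 1 := by
    by_contra hall
    push Not at hall
    have h1 : IsConj n' 1 := (isConj_iff_forall_irr n' 1).mpr hall
    exact hn'1 (isConj_one_right.mp h1.symm)
  have hβc := IsIrrCharacter.isCharacter β.2
  have hβcl : IsClassFunction H (β : H → ℂ) := IsCharacter.isClassFunction hβc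
  have hβ1 := map_one_ne_zero_of_irr β.2
  -- `z` and the commutators are central in `H`
  have hzH : z ∈ H := Subgroup.mem_centralizer_singleton_iff.mpr rfl
  let z' : H := ⟨z, hzH⟩
  have hz'c : z' ∈ Subgroup.center H := by
    rw [Subgroup.mem_center_iff]
    intro g
    apply Subtype.ext
    exact Subgroup.mem_centralizer_singleton_iff.mp g.2
  obtain ⟨y, hy⟩ : ∃ y, y * z ≠ z * y := by
    by_contra hall
    push Not at hall
    exact hzZ (Subgroup.mem_center_iff.mpr hall)
  have hle : Subgroup.zpowers n ≤ Subgroup.center X := by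
    rw [Subgroup.zpowers_le]
    exact hn
  set c := y * z * y⁻¹ * z⁻¹ with hc
  have hcn : c ∈ Subgroup.zpowers n := hz y
  have hcZ : c ∈ Subgroup.center X := hle hcn
  have hc1 : c ≠ 1 := by
    intro h
    rw [hc, mul_inv_eq_one, mul_inv_eq_iff_eq_mul] at h
    exact hy h
  let c' : H := ⟨c, hZH hcZ⟩
  have hc'c : c' ∈ Subgroup.center H := by
    rw [Subgroup.mem_center_iff]
    intro g
    apply Subtype.ext
    exact Subgroup.mem_center_iff.mp hcZ g
  -- `y` does not fix `β`
  have hyI : y ∉ inertia hHn (β : H → ℂ) := by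
    intro hyI
    rw [mem_inertia_iff] at hyI
    have h1 := hyI z'
    have h2 : (⟨y * z' * y⁻¹, hHn.conj_mem _ z'.2 y⟩ : H) = z' * c' := by
      apply Subtype.ext
      show y * z * y⁻¹ = z * c
      rw [show z * c = c * z from Subgroup.mem_center_iff.mp hcZ z, hc]
      group
    rw [h2, Cfsg.Agent.Lib.CharExtra.irr_mul_central β hc'c] at h1
    -- the value at `z'` is nonzero
    have h3 : (β : H → ℂ) z' ≠ 0 := by
      obtain ⟨lam, hlam⟩ := Cfsg.Agent.Lib.CharExtra.exists_hom_of_central β (Subgroup.center H) le_rfl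
      have h4 := hlam ⟨z', hz'c⟩
      have h5 : ((lam ⟨z', hz'c⟩ : ℂˣ) : ℂ) ≠ 0 := Units.ne_zero _
      rw [h4] at h5
      intro h6
      apply h5
      show (β : H → ℂ) z' / _ = 0
      rw [h6, zero_div]
    have h4 : (β : H → ℂ) c' = (β : H → ℂ) 1 := by
      field_simp at h1
      exact h1
    -- the kernel contains `n`
    have h5 : c' ∈ Cfsg.Agent.Lib.Degree.kerOf (β : H → ℂ) :=
      (Cfsg.Agent.Lib.Degree.mem_kerOf_iff hβc).mpr h4
    have h6 : n ∈ Subgroup.zpowers c := mem_zpowers_of_mem hnp hn1 hcn hc1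
    obtain ⟨k, hk⟩ := Subgroup.mem_zpowers_iff.mp h6
    have h7 : n' = c' ^ k := by
      apply Subtype.ext
      exact hk.symm
    apply hβ
    have h8 : n' ∈ Cfsg.Agent.Lib.Degree.kerOf (β : H → ℂ) := by
      rw [h7]
      exact Subgroup.zpow_mem _ h5 k
    exact (Cfsg.Agent.Lib.Degree.mem_kerOf_iff hβc).mp h8
  -- the inertia group is `H`
  have hHI : H ≤ inertia hHn (β : H → ℂ) := le_inertia hHn hβcl
  have hIH : inertia hHn (β : H → ℂ) = H := by
    refine le_antisymm ?_ hHI
    have h1 : (inertia hHn (β : H → ℂ)).index ∣ H.index := Subgroup.index_dvd_of_le hHI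
    rw [hHi, Nat.dvd_prime hp.out] at h1
    rcases h1 with h1 | h1
    · exfalso
      rw [Subgroup.index_eq_one] at h1
      rw [h1] at hyI
      exact hyI (Subgroup.mem_top _)
    · have h2 := Subgroup.relIndex_mul_index hHI
      rw [h1, hHi] at h2
      have h3 : H.relIndex (inertia hHn (β : H → ℂ)) = 1 :=
        Nat.eq_of_mul_eq_mul_right hp.out.pos (by rw [h2, one_mul])
      exact Subgroup.relIndex_eq_one.mp h3
  have hind := indFun_isIrr_of_inertia_eq hHn β.2 hIH
  have hd : charDegree (indFun H (β : H → ℂ)) = p * charDegree (β : H → ℂ) := by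
    apply charDegree_natCast
    rw [indFun_one, hHi, map_one_eq_charDegree hβc]
    push_cast
    rfl
  have h1 := hdeg ⟨_, hind⟩
  change charDegree (indFun H (β : H → ℂ)) ≤ p at h1
  rw [hd] at h1
  have h2 : charDegree (β : H → ℂ) = 1 := by
    have h3 := charDegree_pos_of_irr β.2
    have h4 : charDegree (β : H → ℂ) ≤ 1 := by
      have := hp.out.pos
      nlinarith
    omega
  -- contradiction
  apply hβ
  refine map_derived_of_linear β.2 h2 n' ?_
  rw [← Subgroup.map_subtype_commutator] at hnc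
  obtain ⟨x, hx, hxn⟩ := hnc
  have h3 : x = n' := Subtype.ext hxn
  rw [← h3]
  exact hx

/-- `p`-groups with all degrees at most `p`. -/
theorem pgroup_degrees_le_prime : ∀ (c : ℕ) (X : Type u) [Group X] [Finite X], Nat.card X = c →
    IsPGroup p X → (∀ χ : IrrCharacter X, charDegree (χ : X → ℂ) ≤ p) →
    (∃ a b : X, a * b ≠ b * a) →
    (∃ A : Subgroup X, A.Normal ∧ (∀ a ∈ A, ∀ b ∈ A, a * b = b * a) ∧ A.index = p) ∨
      (Subgroup.center X).index = p ^ 3 := by
  classical
  intro c
  induction c using Nat.strong_induction_on with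
  | _ c ih =>
    intro X _ _ hcard hX hdeg hnab
    have hIH : ∀ (Y : Type u) [Group Y] [Finite Y], Nat.card Y < Nat.card X → IsPGroup p Y →
        (∀ χ : IrrCharacter Y, charDegree (χ : Y → ℂ) ≤ p) → (∃ a b : Y, a * b ≠ b * a) →
        (∃ A : Subgroup Y, A.Normal ∧ (∀ a ∈ A, ∀ b ∈ A, a * b = b * a) ∧ A.index = p) ∨
          (Subgroup.center Y).index = p ^ 3 := by
      intro Y _ _ hlt hY hdY hnY
      exact ih (Nat.card Y) (hcard ▸ hlt) Y rfl hY hdY hnY
    by_cases H0 : ∃ A : Subgroup X, A.Normal ∧ (∀ a ∈ A, ∀ b ∈ A, a * b = b * a) ∧ A.index = p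
    · exact Or.inl H0
    right
    have hpp : p.Prime := hp.out
    obtain ⟨a, ha⟩ := IsPGroup.iff_card.mp hX
    obtain ⟨k, -, hk⟩ := (Nat.dvd_prime_pow hpp).mp (ha ▸ Subgroup.index_dvd_card (Subgroup.center X))
    -- a lower bound for the index
    have hk3 : 3 ≤ k := by
      by_contra hlt
      apply H0
      obtain ⟨a₀, b₀, hab₀⟩ := hnab
      obtain ⟨x, hxZ⟩ : ∃ x, x ∉ Subgroup.center X := by
        refine ⟨a₀, fun h => hab₀ ?_⟩
        exact (Subgroup.mem_center_iff.mp h b₀).symm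
      set A : Subgroup X := Subgroup.zpowers x ⊔ Subgroup.center X with hA
      have hAc : ∀ u ∈ A, ∀ v ∈ A, u * v = v * u := by
        intro u hu v hv
        obtain ⟨s, hs, t, ht, rfl⟩ := Subgroup.mem_sup_of_normal_right.mp hu
        obtain ⟨s', hs', t', ht', rfl⟩ := Subgroup.mem_sup_of_normal_right.mp hv
        have h1 : s * s' = s' * s := by
          obtain ⟨i, rfl⟩ := Subgroup.mem_zpowers_iff.mp hs
          obtain ⟨j, rfl⟩ := Subgroup.mem_zpowers_iff.mp hs'
          exact (Commute.refl x).zpow_zpow i j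
        have h2 := Subgroup.mem_center_iff.mp ht
        have h3 := Subgroup.mem_center_iff.mp ht'
        calc s * t * (s' * t') = s * (t * s') * t' := by group
          _ = s * (s' * t) * t' := by rw [h2]
          _ = (s * s') * t * t' := by group
          _ = (s' * s) * t * t' := by rw [h1]
          _ = s' * (s * t) * t' := by group
          _ = s' * ((s * t) * t') := by group
          _ = s' * (t' * (s * t)) := by rw [h3]
          _ = s' * t' * (s * t) := by group
      have hAtop : A ≠ ⊤ := by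
        intro h
        apply hab₀
        exact hAc a₀ (h ▸ Subgroup.mem_top _) b₀ (h ▸ Subgroup.mem_top _)
      have hZA : Subgroup.center X ≤ A := le_sup_right
      have hxA : x ∈ A := (le_sup_left : Subgroup.zpowers x ≤ A) (Subgroup.mem_zpowers x)
      have h1 := Subgroup.relIndex_mul_index hZA
      have h2 : A.index ∣ p ^ a := by
        rw [← ha]
        exact Subgroup.index_dvd_card A
      have h3 : (Subgroup.center X).relIndex A ∣ p ^ a := by
        rw [← ha]
        exact (Subgroup.relIndex_dvd_card _ A).trans (Subgroup.card_subgroup_dvd_card A)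
      obtain ⟨i, -, hi⟩ := (Nat.dvd_prime_pow hpp).mp h2
      obtain ⟨j, -, hj⟩ := (Nat.dvd_prime_pow hpp).mp h3
      have hi0 : i ≠ 0 := by
        rintro rfl
        rw [pow_zero] at hi
        exact hAtop (Subgroup.index_eq_one.mp hi)
      have hj0 : j ≠ 0 := by
        rintro rfl
        rw [pow_zero] at hj
        exact hxZ (Subgroup.relIndex_eq_one.mp hj hxA)
      rw [hk, hi, hj, ← pow_add] at h1
      have h4 : j + i = k := Nat.pow_right_injective hpp.two_le h1
      have hi1 : i = 1 := by omega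
      have hAi : A.index = p := by rw [hi, hi1, pow_one]
      refine ⟨A, ?_, hAc, hAi⟩
      apply Subgroup.normal_of_index_eq_minFac_card
      rw [hAi, ha]
      have ha0 : a ≠ 0 := by
        rintro rfl
        rw [pow_zero] at ha
        have h5 : Subsingleton X := (Nat.card_eq_one_iff_unique.mp ha).1
        exact hxZ (by rw [Subsingleton.elim x 1]; exact Subgroup.one_mem _)
      exact (Nat.Prime.pow_minFac hpp ha0).symm
    -- the upper bound
    have hk3' : k ≤ 3 := by
      by_contra hgt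
      have hbig : p ^ 3 < (Subgroup.center X).index := by
        rw [hk]
        exact Nat.pow_lt_pow_right hpp.one_lt (by omega)
      -- the central element
      have hXne : commutator X ≠ ⊥ := by
        obtain ⟨a₀, b₀, hab₀⟩ := hnab
        intro h
        have h1 : a₀ * b₀ * a₀⁻¹ * b₀⁻¹ ∈ commutator X := by
          rw [commutator_def]
          exact Subgroup.commutator_mem_commutator (Subgroup.mem_top a₀) (Subgroup.mem_top b₀)
        rw [h, Subgroup.mem_bot, mul_inv_eq_one, mul_inv_eq_iff_eq_mul] at h1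
        exact hab₀ h1
      obtain ⟨n, hnX, hn, hnp, hn1⟩ :=
        exists_central_prime_order hX (commutator X) inferInstance hXne
      obtain ⟨z, hzZ, hz⟩ := exists_z_of_quot hIH hX hdeg H0 hbig hn hnp hn1
      have hnot := not_mem_commutator_centralizer hX hdeg hn hnp hn1 hzZ hz
      set H : Subgroup X := Subgroup.centralizer {z} with hH
      obtain ⟨hHn, hHdvd⟩ := centralizer_index_facts (p := p) z hn hnp hn1 hz
      haveI := hHn
      have hHtop : H ≠ ⊤ := by
        intro h
        apply hzZ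
        rw [Subgroup.mem_center_iff]
        intro g
        have h2 : g ∈ H := by
          rw [h]
          exact Subgroup.mem_top g
        exact Subgroup.mem_centralizer_singleton_iff.mp h2
      have hHi : H.index = p := by
        rw [Nat.dvd_prime hpp] at hHdvd
        rcases hHdvd with h | h
        · exact absurd (Subgroup.index_eq_one.mp h) hHtop
        · exact h
      -- `H` is not abelian
      have hMne : ⁅H, H⁆ ≠ ⊥ := by
        intro h
        apply H0
        refine ⟨H, hHn, ?_, hHi⟩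
        intro u hu v hv
        have h1 : u * v * u⁻¹ * v⁻¹ ∈ ⁅H, H⁆ := Subgroup.commutator_mem_commutator hu hv
        rw [h, Subgroup.mem_bot, mul_inv_eq_one, mul_inv_eq_iff_eq_mul] at h1
        exact h1
      obtain ⟨n₁, hn₁M, hn₁, hn₁p, hn₁1⟩ := exists_central_prime_order hX ⁅H, H⁆ inferInstance hMne
      have hn₁n : n₁ ∉ Subgroup.zpowers n := by
        intro h
        have h1 := mem_zpowers_of_mem hnp hn1 h hn₁1
        have h2 : Subgroup.zpowers n₁ ≤ ⁅H, H⁆ := by
          rw [Subgroup.zpowers_le]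
          exact hn₁M
        exact hnot (h2 h1)
      obtain ⟨z₁, hz₁Z, hz₁⟩ := exists_z_of_quot hIH hX hdeg H0 hbig hn₁ hn₁p hn₁1
      have hnot₁ := not_mem_commutator_centralizer hX hdeg hn₁ hn₁p hn₁1 hz₁Z hz₁
      set H₁ : Subgroup X := Subgroup.centralizer {z₁} with hH₁
      obtain ⟨hH₁n, hH₁dvd⟩ := centralizer_index_facts (p := p) z₁ hn₁ hn₁p hn₁1 hz₁
      haveI := hH₁n
      have hH₁top : H₁ ≠ ⊤ := by
        intro h
        apply hz₁Z
        rw [Subgroup.mem_center_iff]
        intro g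
        have h2 : g ∈ H₁ := by
          rw [h]
          exact Subgroup.mem_top g
        exact Subgroup.mem_centralizer_singleton_iff.mp h2
      have hH₁i : H₁.index = p := by
        rw [Nat.dvd_prime hpp] at hH₁dvd
        rcases hH₁dvd with h | h
        · exact absurd (Subgroup.index_eq_one.mp h) hH₁top
        · exact h
      -- `z` and `z₁` commute
      have hzz₁ : z₁ * z = z * z₁ := by
        have h1 := hz z₁
        by_contra hne
        have h3 : z₁ * z * z₁⁻¹ * z⁻¹ ≠ 1 := by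
          intro h
          rw [mul_inv_eq_one, mul_inv_eq_iff_eq_mul] at h
          exact hne h
        have h4 : z₁ * z * z₁⁻¹ * z⁻¹ ∈ Subgroup.zpowers n₁ := by
          have h5 := Subgroup.inv_mem _ (hz₁ z)
          have h6 : (z * z₁ * z⁻¹ * z₁⁻¹)⁻¹ = z₁ * z * z₁⁻¹ * z⁻¹ := by group
          rwa [h6] at h5
        have h5 := mem_zpowers_of_mem hn₁p hn₁1 h4 h3
        have h6 : Subgroup.zpowers (z₁ * z * z₁⁻¹ * z⁻¹) ≤ Subgroup.zpowers n := by
          rw [Subgroup.zpowers_le]
          exact h1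
        exact hn₁n (h6 h5)
      set D : Subgroup X := H ⊓ H₁ with hD
      haveI hDn : D.Normal := Subgroup.normal_inf_normal _ _
      set B : Subgroup X := Subgroup.centralizer (D : Set X) with hB
      haveI hBn : B.Normal := Subgroup.normal_centralizer
      have hzD : z ∈ D := ⟨Subgroup.mem_centralizer_singleton_iff.mpr rfl,
        Subgroup.mem_centralizer_singleton_iff.mpr hzz₁.symm⟩
      have hz₁D : z₁ ∈ D := ⟨Subgroup.mem_centralizer_singleton_iff.mpr hzz₁,
        Subgroup.mem_centralizer_singleton_iff.mpr rfl⟩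
      have hBm : ∀ y, (∀ h ∈ D, h * y = y * h) → y ∈ B := fun y hy =>
        Subgroup.mem_centralizer_iff.mpr hy
      have hzB : z ∈ B := hBm z fun h hh => Subgroup.mem_centralizer_singleton_iff.mp hh.1
      have hz₁B : z₁ ∈ B := hBm z₁ fun h hh => Subgroup.mem_centralizer_singleton_iff.mp hh.2
      have hnB : n ∈ B := hBm n fun h _ => (Subgroup.mem_center_iff.mp hn h)
      have hn₁B : n₁ ∈ B := hBm n₁ fun h _ => (Subgroup.mem_center_iff.mp hn₁ h)
      have hab : ∀ a ∈ B, ∀ b ∈ B, a * b = b * a := by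
        intro a ha b hb
        have haD : a ∈ D := by
          refine ⟨Subgroup.mem_centralizer_singleton_iff.mpr ?_,
            Subgroup.mem_centralizer_singleton_iff.mpr ?_⟩
          · exact ((Subgroup.mem_centralizer_iff.mp ha) z hzD).symm
          · exact ((Subgroup.mem_centralizer_iff.mp ha) z₁ hz₁D).symm
        exact (Subgroup.mem_centralizer_iff.mp hb) a haD
      obtain ⟨l, hl, hl₁⟩ := exists_dual_ne_one₂ hab ⟨n, hnB⟩ ⟨n₁, hn₁B⟩
        (fun h => hn1 (congrArg Subtype.val h)) (fun h => hn₁1 (congrArg Subtype.val h))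
      have hT : inertia hBn (fnOf l) ≤ D := by
        intro g hg
        refine ⟨Subgroup.mem_centralizer_singleton_iff.mpr ?_,
          Subgroup.mem_centralizer_singleton_iff.mpr ?_⟩
        · exact comm_of_mem_inertia hBn l hnB hzB hnp hl hg (hz g)
        · exact comm_of_mem_inertia hBn l hn₁B hz₁B hn₁p hl₁ hg (hz₁ g)
      have h1 : p < D.index := by
        refine index_lt_of_chain hX (J := H) inf_le_left ?_ hHtop
        intro h
        -- then `H = H₁`
        have h2 : H ≤ H₁ := h.trans inf_le_right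
        have h3 := Subgroup.relIndex_mul_index h2
        rw [hHi, hH₁i] at h3
        have h4 : H.relIndex H₁ = 1 := Nat.eq_of_mul_eq_mul_right hpp.pos (by rw [h3, one_mul])
        have h5 : H₁ ≤ H := Subgroup.relIndex_eq_one.mp h4
        have h6 : H = H₁ := le_antisymm h2 h5
        rw [h6] at hn₁M
        exact hnot₁ hn₁M
      have h2 := inertia_index_le_of_degrees hBn l hdeg
      have h3 : D.index ∣ (inertia hBn (fnOf l)).index := Subgroup.index_dvd_of_le hT
      have h4 := Nat.le_of_dvd (Nat.pos_of_ne_zero (Subgroup.index_ne_zero_of_finite)) h3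
      omega
    have hk' : k = 3 := le_antisymm hk3' hk3
    rw [hk, hk']

end Main

end Cfsg.Agent.Lib.Coprime
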