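import Mathlib
import Cfsg.Agent.Lib.Coprime.TwoDegrees
import Cfsg.Agent.Lib.Degree.FSMore
import Cfsg.Agent.Lib.Degree.Cod
import Cfsg.Agent.Lib.Core.Basic

/-!
# Larger degrees with smaller kernels

If `χ` is irreducible and its restriction to `U` is irreducible, and `χ` does not vanish at an
element of `U` outside the core of `U`, then the character induced from the restriction of `χ` to
`U` has a constituent of larger degree.  With a normalizer of a Sylow subgroup for `U` this gives
characters of larger degree and smaller kernel.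
-/

set_option autoImplicit false
set_option linter.style.haveILetI false
set_option linter.unusedSectionVars false
set_option linter.unusedSimpArgs false
set_option linter.unnecessarySimpa false
set_option linter.unusedVariables false

open scoped ComplexConjugate Pointwise
open Cfsg Cfsg.Agent.Lib.Char
open Cfsg.Agent.Lib.Degree (KerContains inflate inflate_apply inflate_kerContains exists_inflate
  map_eq_of_constituent kerOf mem_kerOf_iff kerOf_normal)

namespace Cfsg.Agent.Lib.Coprime

universe u

section PropA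

variable {G : Type u} [Group G] [Fintype G]

/-- The character induced from the restriction has a constituent of larger degree. -/
theorem exists_larger_constituent (U : Subgroup G) {χ : G → ℂ} (hχ : IsIrrCharacter G χ)
    [Fintype U] (hU : IsIrrCharacter U (fun u : U => χ u)) {u₀ : G} (hu₀ : u₀ ∈ U) (hne : χ u₀ ≠ 0)
    (x₀ : G) (hx₀ : x₀⁻¹ * u₀ * x₀ ∉ U) :
    ∃ ψ : IrrCharacter G, charDegree χ < charDegree (ψ : G → ℂ) ∧
      classInner (fun u : U => (ψ : G → ℂ) u) (fun u : U => χ u) ≠ 0 := by
  classical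
  set θ : U → ℂ := fun u => χ u with hθ
  have hχc := IsIrrCharacter.isCharacter hχ
  have hcl : IsClassFunction G χ := IsCharacter.isClassFunction hχc
  have hθc := IsIrrCharacter.isCharacter hU
  set A := indFun U θ with hA
  have hAc : IsCharacter G A := indFun_isCharacter U hθc
  have hAcl : IsClassFunction G A := IsCharacter.isClassFunction hAc
  -- values
  let ρ : G → ℕ := fun g => (Finset.univ.filter fun x : G => x⁻¹ * g * x ∈ U).card
  have hcard0 : (Nat.card U : ℂ) ≠ 0 := by exact_mod_cast Nat.card_pos.ne'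
  have hval : ∀ g, A g = (Nat.card U : ℂ)⁻¹ * ((ρ g : ℂ) * χ g) := by
    intro g
    rw [hA, indFun_apply]
    congr 1
    have h1 : ∀ x : G, extendByZero U θ (x⁻¹ * g * x) = if x⁻¹ * g * x ∈ U then χ g else 0 := by
      intro x
      split_ifs with hx
      · rw [extendByZero_of_mem U θ hx]
        show χ (x⁻¹ * g * x) = χ g
        have := hcl g x⁻¹
        simpa using this
      · exact extendByZero_of_not_mem U θ hx
    simp_rw [h1]
    rw [Finset.sum_ite, Finset.sum_const_zero, add_zero, Finset.sum_const, nsmul_eq_mul]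
  -- the norm of the restriction
  have hnormU : ∑ u : U, ‖χ u‖ ^ 2 = (Nat.card U : ℝ) := by
    have h1 := classInner_irr_self hU
    rw [classInner_def] at h1
    have h2 : ∑ u : U, θ u * conj (θ u) = (Nat.card U : ℂ) := by
      field_simp at h1
      exact h1
    have h3 : ∑ u : U, θ u * conj (θ u) = ((∑ u : U, ‖χ u‖ ^ 2 : ℝ) : ℂ) := by
      push_cast
      refine Finset.sum_congr rfl fun u _ => ?_
      rw [Complex.mul_conj']
    rw [h3] at h2
    exact_mod_cast h2
  -- the norm of the induced character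
  set r : ℝ := (Nat.card U : ℝ)⁻¹ * ((Nat.card U : ℝ)⁻¹ * ∑ u : U, ‖χ u‖ ^ 2 * (ρ u : ℝ)) with hr
  have hAA : classInner A A = (r : ℂ) := by
    rw [hA, frobenius_reciprocity U θ _ (by rw [← hA]; exact hAcl), ← hA, classInner_def, hr]
    push_cast
    congr 1
    rw [Finset.mul_sum]
    refine Finset.sum_congr rfl fun u _ => ?_
    rw [hval, map_mul, map_inv₀, map_mul, Complex.conj_natCast, Complex.conj_natCast]
    have h1 : θ u * conj (θ u) = (‖χ u‖ : ℂ) ^ 2 := by
      rw [Complex.mul_conj']
    calc θ u * ((Nat.card U : ℂ)⁻¹ * ((ρ u : ℂ) * conj (χ u)))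
        = (Nat.card U : ℂ)⁻¹ * ((θ u * conj (θ u)) * (ρ u : ℂ)) := by simp only [hθ]; ring
      _ = _ := by rw [h1]
  have hcardU : (0 : ℝ) < Nat.card U := by exact_mod_cast Nat.card_pos
  have hrlt : r < (U.index : ℝ) := by
    have h1 : ∑ u : U, ‖χ u‖ ^ 2 * (ρ u : ℝ) < ∑ u : U, ‖χ u‖ ^ 2 * (Nat.card G : ℝ) := by
      apply Finset.sum_lt_sum
      · intro u _
        apply mul_le_mul_of_nonneg_left _ (by positivity)
        have : ρ u ≤ Nat.card G := by
          rw [Nat.card_eq_fintype_card, ← Finset.card_univ]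
          exact Finset.card_filter_le _ _
        exact_mod_cast this
      · refine ⟨⟨u₀, hu₀⟩, Finset.mem_univ _, ?_⟩
        have hpos : 0 < ‖χ u₀‖ ^ 2 := by
          have := norm_pos_iff.mpr hne
          positivity
        apply mul_lt_mul_of_pos_left _ hpos
        have : ρ u₀ < Nat.card G := by
          rw [Nat.card_eq_fintype_card, ← Finset.card_univ]
          apply Finset.card_lt_card
          rw [Finset.ssubset_univ_iff]
          intro h
          have h2 : x₀ ∈ Finset.univ.filter fun x : G => x⁻¹ * u₀ * x ∈ U := by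
            rw [h]
            exact Finset.mem_univ _
          exact hx₀ (Finset.mem_filter.mp h2).2
        exact_mod_cast this
    rw [← Finset.sum_mul, hnormU] at h1
    have h2 : (U.index : ℝ) * Nat.card U = Nat.card G := by
      have := Subgroup.index_mul_card U
      exact_mod_cast this
    have h3 : r * ((Nat.card U : ℝ) * Nat.card U) = ∑ u : U, ‖χ u‖ ^ 2 * (ρ u : ℝ) := by
      rw [hr]
      field_simp
    have h4 : r * ((Nat.card U : ℝ) * Nat.card U) < U.index * ((Nat.card U : ℝ) * Nat.card U) := by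
      rw [h3]
      calc _ < (Nat.card U : ℝ) * Nat.card G := h1
        _ = _ := by rw [← h2]; ring
    exact lt_of_mul_lt_mul_right h4 (by positivity)
  -- the decomposition
  by_contra hcon
  push Not at hcon
  obtain ⟨c, hc⟩ := character_eq_sum_nat hAc
  have hcoef : ∀ ψ : IrrCharacter G, classInner A (ψ : G → ℂ) = (c ψ : ℂ) := by
    intro ψ
    rw [hc, classInner_sum_left]
    rw [Finset.sum_eq_single ψ]
    · rw [classInner_smul_left, classInner_irr_self ψ.2, mul_one]
    · intro φ _ hφ
      rw [classInner_smul_left, classInner_irr_of_ne φ.2 ψ.2 (fun h => hφ (Subtype.ext h)), mul_zero]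
    · intro h
      exact absurd (Finset.mem_univ ψ) h
  have hle : ∀ ψ : IrrCharacter G, c ψ ≠ 0 → charDegree (ψ : G → ℂ) ≤ charDegree χ := by
    intro ψ hψ
    by_contra hlt
    push Not at hlt
    apply hψ
    have h1 := hcon ψ hlt
    have h2 : classInner A (ψ : G → ℂ) = 0 := by
      rw [hA, frobenius_reciprocity U θ _ (IsCharacter.isClassFunction (IsIrrCharacter.isCharacter ψ.2)),
        ← conj_classInner, h1]
      simp
    rw [hcoef] at h2
    exact_mod_cast h2
  have hdeg : U.index * charDegree χ = ∑ ψ, c ψ * charDegree (ψ : G → ℂ) := by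
    have h1 : A 1 = (U.index : ℂ) * (charDegree χ : ℂ) := by
      rw [hA, indFun_one]
      show (U.index : ℂ) * χ 1 = _
      rw [map_one_eq_charDegree hχc]
    have h2 : A 1 = ∑ ψ, (c ψ : ℂ) * (charDegree (ψ : G → ℂ) : ℂ) := by
      rw [hc, Finset.sum_apply]
      refine Finset.sum_congr rfl fun ψ _ => ?_
      rw [Pi.smul_apply, smul_eq_mul, map_one_eq_charDegree (IsIrrCharacter.isCharacter ψ.2)]
    rw [h1] at h2
    exact_mod_cast h2
  have hdpos : 0 < charDegree χ := charDegree_pos_of_irr hχ
  have hsum : U.index ≤ ∑ ψ, c ψ := by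
    have h1 : ∑ ψ, c ψ * charDegree (ψ : G → ℂ) ≤ ∑ ψ, c ψ * charDegree χ := by
      apply Finset.sum_le_sum
      intro ψ _
      by_cases h0 : c ψ = 0
      · simp [h0]
      · exact Nat.mul_le_mul_left _ (hle ψ h0)
    rw [← Finset.sum_mul, ← hdeg] at h1
    exact Nat.le_of_mul_le_mul_right h1 hdpos
  have hsq : ∑ ψ, c ψ ≤ ∑ ψ, c ψ ^ 2 := by
    apply Finset.sum_le_sum
    intro ψ _
    exact Nat.le_self_pow two_ne_zero _
  have hAAsum : classInner A A = ((∑ ψ, c ψ ^ 2 : ℕ) : ℂ) := by
    have h1 : A = ∑ ψ, (((c ψ : ℤ) : ℂ)) • (ψ : G → ℂ) := by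
      rw [hc]
      refine Finset.sum_congr rfl fun ψ _ => ?_
      simp
    rw [h1, classInner_self_eq_sum_int]
    push_cast
    rfl
  rw [hAA] at hAAsum
  have h5 : r = ((∑ ψ, c ψ ^ 2 : ℕ) : ℝ) := by exact_mod_cast hAAsum
  have h6 : (U.index : ℝ) ≤ ((∑ ψ, c ψ ^ 2 : ℕ) : ℝ) := by
    exact_mod_cast hsum.trans hsq
  linarith

end PropA

section Helpers

variable {G : Type u} [Group G]

/-- The restriction to a supplement of a normal subgroup in the kernel is irreducible. -/
theorem irr_restrict_of_sup [Finite G] (U R : Subgroup G) [hR : R.Normal] (hUR : U ⊔ R = ⊤)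
    (χ : IrrCharacter G) (hker : ∀ r ∈ R, (χ : G → ℂ) r = (χ : G → ℂ) 1) :
    IsIrrCharacter U (fun u : U => (χ : G → ℂ) u) := by
  classical
  obtain ⟨ψ, hψ⟩ := exists_inflate R (χ := χ) hker
  let φ : U →* G ⧸ R := (QuotientGroup.mk' R).comp U.subtype
  have hφ : Function.Surjective φ := by
    intro q
    obtain ⟨g, rfl⟩ := QuotientGroup.mk_surjective q
    have h1 : g ∈ U ⊔ R := by
      rw [hUR]
      exact Subgroup.mem_top g
    obtain ⟨y, hy, z, hz, rfl⟩ := Subgroup.mem_sup_of_normal_right.mp h1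
    refine ⟨⟨y, hy⟩, ?_⟩
    have h2 : ((y * z : G) : G ⧸ R) = (y : G ⧸ R) := by
      rw [QuotientGroup.mk_mul, (QuotientGroup.eq_one_iff z).mpr hz, mul_one]
    rw [h2]
    rfl
  have h1 := isIrr_comp_surjective φ hφ ψ.2
  have h2 : (fun u : U => (χ : G → ℂ) u) = (ψ : G ⧸ R → ℂ) ∘ φ := by
    funext u
    rw [← hψ]
    rfl
  rw [h2]
  exact h1

/-- Normalizers of Sylow subgroups supplement a normal subgroup with nilpotent quotient. -/
theorem normalizer_sup_residual {Y : Type*} [Group Y] [Finite Y] {q : ℕ} [Fact q.Prime]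
    (P : Sylow q Y) (R : Subgroup Y) [hR : R.Normal] (h : Group.IsNilpotent (Y ⧸ R)) :
    Subgroup.normalizer (P : Set Y) ⊔ R = ⊤ := by
  let f : Y →* Y ⧸ R := QuotientGroup.mk' R
  have hf : Function.Surjective f := QuotientGroup.mk'_surjective R
  let P' : Sylow q (Y ⧸ R) := P.mapSurjective hf
  have hP' : ((P' : Subgroup (Y ⧸ R))).Normal :=
    (Group.isNilpotent_of_finite_tfae.out 0 3 rfl rfl).mp h q inferInstance P'
  have hXn : ((P : Subgroup Y) ⊔ R).Normal := by
    have h1 : ((P : Subgroup Y) ⊔ R) = ((P' : Subgroup (Y ⧸ R))).comap f := by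
      rw [Sylow.coe_mapSurjective, Subgroup.comap_map_eq, QuotientGroup.ker_mk']
    rw [h1]
    exact hP'.comap f
  have h2 := Sylow.normalizer_sup_eq_top' P (le_sup_left : (P : Subgroup Y) ≤ (P : Subgroup Y) ⊔ R)
  have hle : (P : Subgroup Y) ≤ Subgroup.normalizer (P : Set Y) := Subgroup.le_normalizer
  rw [← sup_assoc] at h2
  have h3 : Subgroup.normalizer (P : Set Y) ⊔ (P : Subgroup Y) = Subgroup.normalizer (P : Set Y) :=
    sup_eq_left.mpr hle
  have h4 : Subgroup.normalizer (P : Set Y) ⊔ R = Subgroup.normalizer (P : Set Y) ⊔ (P : Subgroup Y) ⊔ R := by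
    rw [h3]
  rw [h4]
  exact h2

/-- A quotient by a subgroup containing a term of the lower central series is nilpotent. -/
theorem isNilpotent_quot_of_lcs_le (D R : Subgroup G) [(R.subgroupOf D).Normal] {n : ℕ}
    (h : D.lowerCentralSeries n ≤ R) : Group.IsNilpotent (↥D ⧸ R.subgroupOf D) := by
  rw [nilpotent_iff_lowerCentralSeries]
  refine ⟨n, ?_⟩
  have hs : Function.Surjective (QuotientGroup.mk' (R.subgroupOf D)) :=
    QuotientGroup.mk'_surjective _
  have h1 : ((⊤ : Subgroup ↥D).lowerCentralSeries n).map (QuotientGroup.mk' (R.subgroupOf D)) =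
      (⊤ : Subgroup (↥D ⧸ R.subgroupOf D)).lowerCentralSeries n := by
    rw [Subgroup.map_lowerCentralSeries, ← MonoidHom.range_eq_map, MonoidHom.range_eq_top.mpr hs]
  rw [← h1, eq_bot_iff, Subgroup.map_le_iff_le_comap]
  intro x hx
  rw [Subgroup.mem_comap, Subgroup.mem_bot]
  show (QuotientGroup.mk x : ↥D ⧸ R.subgroupOf D) = 1
  rw [QuotientGroup.eq_one_iff, Subgroup.mem_subgroupOf]
  apply h
  rw [← Subgroup.top_subtype_lowerCentralSeries]
  exact ⟨x, hx, rfl⟩

end Helpers

section Core

variable {G : Type u} [Group G] [Finite G]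

/-- The core of the argument, in the quotient. -/
theorem kernel_core (χ : IrrCharacter G) (K D R : Subgroup G) [hKn : K.Normal] [hDnor : D.Normal]
    [hRn : R.Normal] (hK : ∀ g, g ∈ K ↔ (χ : G → ℂ) g = (χ : G → ℂ) 1) (hKD : K ≤ D) (hRK : R ≤ K)
    (hDnil : ¬ Group.IsNilpotent D) (hDR : Group.IsNilpotent (↥D ⧸ R.subgroupOf D))
    (hmin : ∀ M : Subgroup G, M.Normal → M ≠ ⊥ → M ≤ K → R ≤ M)
    (hcase : D = K ∨ (Group.IsNilpotent K ∧ (∃ m, D.lowerCentralSeries m ≤ K) ∧
      ∀ M : Subgroup G, M.Normal → K ≤ M → M ≤ D → M = K ∨ M = D)) :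
    ∃ ψ : IrrCharacter G, charDegree (χ : G → ℂ) < charDegree (ψ : G → ℂ) ∧
      ∀ g, (ψ : G → ℂ) g = (ψ : G → ℂ) 1 → g = 1 := by
  classical
  haveI := Fintype.ofFinite G
  -- a non-normal Sylow subgroup
  obtain ⟨q, hq, P, hPn⟩ : ∃ (q : ℕ) (_ : Fact q.Prime) (P : Sylow q D),
      ¬ ((P : Subgroup D)).Normal := by
    by_contra hcon
    push Not at hcon
    exact hDnil ((Group.isNilpotent_of_finite_tfae.out 0 3 rfl rfl).mpr hcon)
  set S : Subgroup G := (P : Subgroup D).map D.subtype with hS
  set U : Subgroup G := Subgroup.normalizer (S : Set G) with hU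
  haveI : Fintype U := Fintype.ofFinite U
  have hSD : S ≤ D := by
    rintro _ ⟨x, -, rfl⟩
    exact x.2
  have hSU : S ≤ U := Subgroup.le_normalizer
  have hχc := IsIrrCharacter.isCharacter χ.2
  have h1ne : (χ : G → ℂ) 1 ≠ 0 := map_one_ne_zero_of_irr χ.2
  -- the supplement
  have hUR : U ⊔ R = ⊤ := by
    have h1 : Subgroup.normalizer (S : Set G) ⊔ D = ⊤ := Sylow.normalizer_sup_eq_top P
    have h2 := normalizer_sup_residual P (R.subgroupOf D) hDR
    have h3 : D ≤ U ⊔ R := by
      intro d hd
      have h4 : (⟨d, hd⟩ : D) ∈ Subgroup.normalizer (P : Set D) ⊔ R.subgroupOf D := by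
        rw [h2]
        exact Subgroup.mem_top _
      obtain ⟨n, hn, r, hr, hnr⟩ := Subgroup.mem_sup_of_normal_right.mp h4
      have h5 : (n : G) ∈ U := by
        have h6 := Subgroup.le_normalizer_map D.subtype (H := (P : Subgroup D))
        exact h6 ⟨n, hn, rfl⟩
      have h7 : (r : G) ∈ R := hr
      have h8 : (n : G) * r = d := congrArg Subtype.val hnr
      rw [← h8]
      exact Subgroup.mul_mem_sup h5 h7
    rw [eq_top_iff, ← h1]
    exact sup_le le_sup_left h3
  have hUtop : U ≠ ⊤ := by
    intro h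
    apply hPn
    have h1 : S.Normal := Subgroup.normalizer_eq_top_iff.mp h
    have h2 : (P : Subgroup D) = S.comap D.subtype := by
      rw [hS, Subgroup.comap_map_eq_self_of_injective D.subtype_injective]
    rw [h2]
    exact h1.comap _
  have hRker : ∀ r ∈ R, (χ : G → ℂ) r = (χ : G → ℂ) 1 := fun r hr => (hK r).mp (hRK hr)
  have hUirr := irr_restrict_of_sup U R hUR χ hRker
  have hRU : ¬ R ≤ U := by
    intro h
    apply hUtop
    rw [← hUR]
    exact (sup_eq_left.mpr h).symm
  have hSbot : S ≠ ⊥ := by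
    intro h
    apply hUtop
    rw [hU, h]
    exact Subgroup.normalizer_eq_top_iff.mpr inferInstance
  -- the witness
  obtain ⟨u₀, hu₀, hne, x₀, hx₀⟩ : ∃ u₀ ∈ U, (χ : G → ℂ) u₀ ≠ 0 ∧ ∃ x₀ : G, x₀⁻¹ * u₀ * x₀ ∉ U := by
    by_contra hcon
    push Not at hcon
    -- the intersection with `K` is normal, hence trivial
    have hKU : K ⊓ U = ⊥ := by
      by_contra hne'
      have hnorm : (K ⊓ U).Normal := by
        refine ⟨fun n hn g => ⟨hKn.conj_mem n hn.1 g, ?_⟩⟩
        have h1 : (χ : G → ℂ) n ≠ 0 := by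
          rw [(hK n).mp hn.1]
          exact h1ne
        have := hcon n hn.2 h1 g⁻¹
        simpa using this
      have h2 := hmin _ hnorm hne' inf_le_left
      exact hRU (h2.trans inf_le_right)
    have hSK : S ⊓ K = ⊥ := by
      rw [eq_bot_iff, ← hKU, inf_comm]
      exact inf_le_inf_left K hSU
    rcases hcase with hDK | ⟨-, -, hminD⟩
    · apply hSbot
      rw [eq_bot_iff, ← hSK]
      exact le_inf le_rfl (hDK ▸ hSD)
    · -- the core
      set W := U.normalCore with hW
      have hWU : W ≤ U := Subgroup.normalCore_le U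
      have hWm : ∀ u, u ∈ W ↔ ∀ x : G, x * u * x⁻¹ ∈ U := fun u => Iff.rfl
      haveI hWn : W.Normal := Subgroup.normalCore_normal U
      have hcommW : ∀ s ∈ S, ∀ r ∈ R, s ∈ W → r * s * r⁻¹ = s := by
        intro s hs r hr hsW
        have h1 : r * s * r⁻¹ * s⁻¹ ∈ K ⊓ U := by
          constructor
          · have h2 : r * (s * r⁻¹ * s⁻¹) ∈ K :=
              K.mul_mem (hRK hr) (hKn.conj_mem _ (K.inv_mem (hRK hr)) s)
            have h3 : r * s * r⁻¹ * s⁻¹ = r * (s * r⁻¹ * s⁻¹) := by group
            rw [h3]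
            exact h2
          · exact hWU (W.mul_mem (hWn.conj_mem s hsW r) (W.inv_mem hsW))
        rw [hKU, Subgroup.mem_bot, mul_inv_eq_one] at h1
        exact h1
      -- Claim B
      have hS0 : S ⊓ W = ⊥ := by
        by_contra hS0ne
        set S₀ := S ⊓ W with hS₀
        have hS₀U : ∀ u ∈ U, ∀ s ∈ S₀, u * s * u⁻¹ ∈ S₀ := by
          intro u hu s hs
          exact ⟨(Subgroup.mem_normalizer_iff.mp hu s).mp hs.1, hWn.conj_mem s hs.2 u⟩
        have hMn : (S₀ ⊔ K).Normal := by
          refine ⟨fun n hn g => ?_⟩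
          obtain ⟨s, hs, k, hk, rfl⟩ := Subgroup.mem_sup_of_normal_right.mp hn
          have hg : g ∈ U ⊔ R := by
            rw [hUR]
            exact Subgroup.mem_top g
          obtain ⟨u, hu, r, hr, rfl⟩ := Subgroup.mem_sup_of_normal_right.mp hg
          have h1 : (u * r) * (s * k) * (u * r)⁻¹ =
              (u * (r * (s * r⁻¹ * s⁻¹)) * u⁻¹) * (u * s * u⁻¹) * ((u * r) * k * (u * r)⁻¹) := by
            group
          rw [h1]
          refine Subgroup.mul_mem _ (Subgroup.mul_mem _ ?_ ?_) ?_
          · apply (le_sup_right : K ≤ S₀ ⊔ K)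
            exact hKn.conj_mem _ (K.mul_mem (hRK hr) (hKn.conj_mem _ (K.inv_mem (hRK hr)) s)) u
          · exact (le_sup_left : S₀ ≤ S₀ ⊔ K) (hS₀U u hu s hs)
          · exact (le_sup_right : K ≤ S₀ ⊔ K) (hKn.conj_mem k hk _)
        have hS₀D : S₀ ≤ D := inf_le_left.trans hSD
        rcases hminD _ hMn le_sup_right (sup_le hS₀D hKD) with hM | hM
        · apply hS0ne
          have h1 : S₀ ≤ K := by
            rw [← hM]
            exact le_sup_left
          rw [eq_bot_iff, ← hSK]
          exact le_inf inf_le_left h1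
        · -- `S` lies in the core
          have hSW : S ≤ W := by
            intro s hs
            have h1 : s ∈ S₀ ⊔ K := by
              rw [hM]
              exact hSD hs
            obtain ⟨s₀, hs₀, k, hk, rfl⟩ := Subgroup.mem_sup_of_normal_right.mp h1
            have h2 : k ∈ S ⊓ K := by
              refine ⟨?_, hk⟩
              have := S.mul_mem (S.inv_mem hs₀.1) hs
              simpa using this
            rw [hSK, Subgroup.mem_bot] at h2
            rw [h2, mul_one]
            exact hs₀.2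
          apply hRU
          intro r hr
          rw [hU, Subgroup.mem_normalizer_iff]
          intro s
          constructor
          · intro hs
            rw [hcommW s hs r hr (hSW hs)]
            exact hs
          · intro hs
            have h1 : r * s * r⁻¹ ∈ D := hs |> fun h => hSD h
            have h2 : s ∈ D := by
              have := hDnor.conj_mem _ h1 r⁻¹
              simpa [mul_assoc] using this
            have h3 : s = r⁻¹ * (r * s * r⁻¹) * r⁻¹⁻¹ := by group
            rw [h3]
            have h4 := hcommW _ hs r⁻¹ (R.inv_mem hr) (hSW hs)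
            rw [h4]
            exact hs
      -- Claim A
      have hA : ∃ s ∈ S, s ≠ 1 ∧ (χ : G → ℂ) s ≠ 0 := by
        by_contra hzero
        push Not at hzero
        have hNn : (S.subgroupOf U).Normal := Subgroup.normal_in_normalizer
        haveI := hNn
        haveI : Fintype (S.subgroupOf U) := Fintype.ofFinite _
        have h1 : classInner (indFun (S.subgroupOf U) (fun _ => (1 : ℂ)))
            (fun u : U => (χ : G → ℂ) u) ≠ 0 := by
          rw [frobenius_reciprocity _ _ _ (IsCharacter.isClassFunction (IsIrrCharacter.isCharacter hUirr)),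
            classInner_def, Finset.sum_eq_single 1]
          · simp only [OneMemClass.coe_one, map_one, mul_one, one_mul]
            refine mul_ne_zero ?_ ?_
            · exact inv_ne_zero (by exact_mod_cast Nat.card_pos.ne')
            · simpa using h1ne
          · intro n _ hn
            have h2 : ((n : U) : G) ∈ S := n.2
            have h3 : ((n : U) : G) ≠ 1 := by
              intro h
              apply hn
              apply Subtype.ext
              apply Subtype.ext
              exact h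
            rw [hzero _ h2 h3]
            simp
          · intro h
            exact absurd (Finset.mem_univ _) h
        have h2 := (one_constituent_iff (S.subgroupOf U) hUirr).mp h1
        apply hSbot
        rw [eq_bot_iff, ← hSK]
        refine le_inf le_rfl ?_
        intro s hs
        rw [hK]
        exact h2 ⟨s, hSU hs⟩ hs
      obtain ⟨s, hs, hs1, hsne⟩ := hA
      have h3 := hcon s (hSU hs) hsne
      have h4 : s ∈ S ⊓ W := by
        refine ⟨hs, (hWm s).mpr fun x => ?_⟩
        have := h3 x⁻¹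
        simpa using this
      rw [hS0, Subgroup.mem_bot] at h4
      exact hs1 h4
  -- the character
  obtain ⟨ψ, hdeg, hcon⟩ := exists_larger_constituent U χ.2 hUirr hu₀ hne x₀ hx₀
  refine ⟨ψ, hdeg, ?_⟩
  have hψc := IsIrrCharacter.isCharacter ψ.2
  set J := kerOf (ψ : G → ℂ) with hJ
  haveI hJn : J.Normal := kerOf_normal (IsCharacter.isClassFunction hψc)
  have hJm : ∀ g, g ∈ J ↔ (ψ : G → ℂ) g = (ψ : G → ℂ) 1 := fun g => mem_kerOf_iff hψc
  -- `R` is not in the kernel
  have hRJ : ¬ R ≤ J := by
    intro h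
    have h1 := irr_restrict_of_sup U R hUR ψ (fun r hr => (hJm r).mp (h hr))
    have h2 : (fun u : U => (ψ : G → ℂ) u) = fun u : U => (χ : G → ℂ) u := by
      by_contra hne'
      exact hcon (classInner_irr_of_ne h1 hUirr hne')
    have h3 := congrFun h2 1
    simp only [OneMemClass.coe_one] at h3
    have h4 : charDegree (ψ : G → ℂ) = charDegree (χ : G → ℂ) := by
      simp only [charDegree, h3]
    omega
  have hJK : J ⊓ K = ⊥ := by
    by_contra hne'
    exact hRJ ((hmin _ inferInstance hne' inf_le_right).trans inf_le_left)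
  have hJD : J ⊓ D = ⊥ := by
    rcases hcase with hDK | ⟨hKnil, ⟨m, hm⟩, hminD⟩
    · rw [hDK]
      exact hJK
    · by_contra hne'
      rcases hminD ((J ⊓ D) ⊔ K) inferInstance le_sup_right (sup_le inf_le_right hKD) with hM | hM
      · apply hne'
        rw [eq_bot_iff, ← hJK]
        refine le_inf inf_le_left ?_
        rw [← hM]
        exact le_sup_left
      · apply hDnil
        have hJ₁ : Group.IsNilpotent ↥(J ⊓ D) := by
          rw [Subgroup.isNilpotent_iff_lowerCentralSeries]
          refine ⟨m, ?_⟩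
          rw [eq_bot_iff, ← hJK]
          refine le_inf ?_ ?_
          · exact (Subgroup.lowerCentralSeries_le_self _ _).trans inf_le_left
          · exact (Subgroup.lowerCentralSeries_mono m (inf_le_right : J ⊓ D ≤ D)).trans hm
        have := Cfsg.Agent.Lib.Core.isNilpotent_sup (J ⊓ D) K hJ₁ hKnil
        rw [hM] at this
        exact this
  have hJC : ∀ j ∈ J, ∀ d ∈ D, j * d * j⁻¹ = d := by
    intro j hj d hd
    have h1 : j * d * j⁻¹ * d⁻¹ ∈ J ⊓ D := by
      constructor
      · have h2 := J.mul_mem hj (hJn.conj_mem _ (J.inv_mem hj) d)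
        have h3 : j * d * j⁻¹ * d⁻¹ = j * (d * j⁻¹ * d⁻¹) := by group
        rw [h3]
        exact h2
      · exact D.mul_mem (hDnor.conj_mem d hd j) (D.inv_mem hd)
    rw [hJD, Subgroup.mem_bot, mul_inv_eq_one] at h1
    exact h1
  have hJU : J ≤ U := by
    intro j hj
    rw [hU, Subgroup.mem_normalizer_iff]
    intro s
    constructor
    · intro hs
      rw [hJC j hj s (hSD hs)]
      exact hs
    · intro hs
      have h1 : j * s * j⁻¹ ∈ D := hSD hs
      have h2 : s ∈ D := by
        have := hDnor.conj_mem _ h1 j⁻¹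
        simpa [mul_assoc] using this
      rw [hJC j hj s h2] at hs
      exact hs
  have hJK' : J ≤ K := by
    intro j hj
    rw [hK]
    have h1 := map_eq_of_constituent (IsCharacter.restrict U hψc) hUirr hcon
      (g := ⟨j, hJU hj⟩) ((hJm j).mp hj)
    exact h1
  intro g hg
  have h1 : g ∈ J ⊓ K := ⟨(hJm g).mpr hg, hJK' ((hJm g).mpr hg)⟩
  rw [hJK, Subgroup.mem_bot] at h1
  exact h1

/-- The transfer to the quotient. -/
theorem kernel_transfer (χ : IrrCharacter G) (K D : Subgroup G) [hKn : K.Normal] [hDnor : D.Normal]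
    (hK : ∀ g, g ∈ K ↔ (χ : G → ℂ) g = (χ : G → ℂ) 1) (hKD : K ≤ D)
    (hDnil : ¬ Group.IsNilpotent D) (hm₀ : ∃ m₀, D.lowerCentralSeries m₀ ≤ K)
    (hcase : D = K ∨ (Group.IsNilpotent K ∧
      ∀ M : Subgroup G, M.Normal → K ≤ M → M ≤ D → M = K ∨ M = D)) :
    ∃ ψ : IrrCharacter G, charDegree (χ : G → ℂ) < charDegree (ψ : G → ℂ) ∧
      ∃ L : Subgroup G, (∀ g, g ∈ L ↔ (ψ : G → ℂ) g = (ψ : G → ℂ) 1) ∧ L < K := by
  classical
  obtain ⟨m₀, hm₀⟩ := hm₀
  -- the maximal kernel
  let 𝓛 : Set (Subgroup G) := {L | L.Normal ∧ L ≤ K ∧ ∀ m, ¬ D.lowerCentralSeries m ≤ L}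
  have hbot : (⊥ : Subgroup G) ∈ 𝓛 := by
    refine ⟨inferInstance, bot_le, fun m h => hDnil ?_⟩
    rw [Subgroup.isNilpotent_iff_lowerCentralSeries]
    exact ⟨m, le_bot_iff.mp h⟩
  obtain ⟨L, hLmax⟩ := (Set.toFinite 𝓛).exists_maximal ⟨⊥, hbot⟩
  obtain ⟨hLn, hLK, hLnil⟩ := hLmax.1
  haveI := hLn
  have hLK' : L < K := by
    refine lt_of_le_of_ne hLK ?_
    rintro rfl
    exact hLnil m₀ hm₀
  let π : G →* G ⧸ L := QuotientGroup.mk' L
  have hπ : Function.Surjective π := QuotientGroup.mk'_surjective L
  have hπker : π.ker = L := QuotientGroup.ker_mk' L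
  have hmapK : ∀ g, π g ∈ K.map π ↔ g ∈ K := by
    intro g
    constructor
    · rintro ⟨k, hk, h1⟩
      have h2 : k⁻¹ * g ∈ L := by
        rw [← hπker, MonoidHom.mem_ker, map_mul, map_inv, h1, inv_mul_cancel]
      have := K.mul_mem hk (hLK h2)
      simpa using this
    · exact Subgroup.mem_map_of_mem π
  obtain ⟨ψ₀, hψ₀⟩ := exists_inflate L (χ := χ) (fun n hn => (hK n).mp (hLK hn))
  have hψ₀v : ∀ g, (ψ₀ : G ⧸ L → ℂ) (π g) = (χ : G → ℂ) g := fun g =>
    congrFun (congrArg Subtype.val hψ₀) g
  have hψ₀1 : (ψ₀ : G ⧸ L → ℂ) 1 = (χ : G → ℂ) 1 := by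
    rw [← hψ₀v 1, map_one]
  set Kb := K.map π with hKb
  set Db := D.map π with hDb
  haveI hKbn : Kb.Normal := hKn.map π hπ
  haveI hDbn : Db.Normal := hDnor.map π hπ
  -- the residual
  obtain ⟨Rb, hRbmin⟩ := (Set.toFinite (Set.range fun n => Db.lowerCentralSeries n)).exists_minimal
    ⟨_, ⟨0, rfl⟩⟩
  obtain ⟨n, hn⟩ := hRbmin.1
  have hRbn : ∀ m, Rb ≤ Db.lowerCentralSeries m := by
    intro m
    have h1 : Db.lowerCentralSeries (max n m) ≤ Rb := by
      rw [← hn]
      exact Subgroup.lowerCentralSeries_antitone _ (le_max_left n m)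
    have h2 := hRbmin.2 ⟨max n m, rfl⟩ h1
    exact h2.trans (Subgroup.lowerCentralSeries_antitone _ (le_max_right n m))
  haveI hRnn : Rb.Normal := by
    rw [← hn]
    infer_instance
  have hmapl : ∀ m, (D.lowerCentralSeries m).map π = Db.lowerCentralSeries m :=
    fun m => Subgroup.map_lowerCentralSeries D π m
  obtain ⟨ψb, hdeg, hfaith⟩ := kernel_core ψ₀ Kb Db Rb
    (by
      intro g
      obtain ⟨g, rfl⟩ := hπ g
      rw [hmapK, hK, hψ₀v, hψ₀1])
    (Subgroup.map_mono hKD)
    (by
      have h1 := hRbn m₀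
      rw [← hmapl] at h1
      exact h1.trans (Subgroup.map_mono hm₀))
    (by
      intro h
      rw [Subgroup.isNilpotent_iff_lowerCentralSeries] at h
      obtain ⟨m, hm⟩ := h
      apply hLnil m
      rw [← hπker]
      intro x hx
      rw [MonoidHom.mem_ker]
      have h2 : π x ∈ Db.lowerCentralSeries m := by
        rw [← hmapl]
        exact Subgroup.mem_map_of_mem π hx
      rw [hm, Subgroup.mem_bot] at h2
      exact h2)
    (by
      have h1 : Db.lowerCentralSeries n ≤ Rb := le_of_eq hn
      exact isNilpotent_quot_of_lcs_le Db Rb h1)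
    (by
      intro Mb hMb hMb0 hMbK
      haveI := hMb
      set M := Mb.comap π with hM
      have hLM : L ≤ M := by
        rw [← hπker]
        exact MonoidHom.ker_le_comap π Mb
      have hMK : M ≤ K := by
        intro x hx
        exact (hmapK x).mp (hMbK hx)
      have hMmap : M.map π = Mb := Subgroup.map_comap_eq_self_of_surjective hπ Mb
      have hMnot : M ∉ 𝓛 := by
        intro hmem
        have h1 := hLmax.2 hmem hLM
        apply hMb0
        rw [← hMmap, eq_bot_iff, Subgroup.map_le_iff_le_comap]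
        intro x hx
        rw [Subgroup.mem_comap, Subgroup.mem_bot, ← MonoidHom.mem_ker, hπker]
        exact h1 hx
      have hMnorm : M.Normal := hMb.comap π
      have h2 : ∃ m, D.lowerCentralSeries m ≤ M := by
        by_contra hcon
        push Not at hcon
        exact hMnot ⟨hMnorm, hMK, hcon⟩
      obtain ⟨m, hm⟩ := h2
      have h3 : Db.lowerCentralSeries m ≤ Mb := by
        rw [← hmapl, ← hMmap]
        exact Subgroup.map_mono hm
      exact (hRbn m).trans h3)
    (by
      rcases hcase with hDK | ⟨hKnil, hminD⟩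
      · left
        rw [hDb, hDK]
      · right
        refine ⟨?_, ⟨m₀, ?_⟩, ?_⟩
        · rw [Subgroup.isNilpotent_iff_lowerCentralSeries] at hKnil ⊢
          obtain ⟨m, hm⟩ := hKnil
          refine ⟨m, ?_⟩
          rw [hKb, ← Subgroup.map_lowerCentralSeries, hm, Subgroup.map_bot]
        · rw [← hmapl]
          exact Subgroup.map_mono hm₀
        · intro Mb hMb hKM hMD
          have hMmap : (Mb.comap π).map π = Mb := Subgroup.map_comap_eq_self_of_surjective hπ Mb
          have h1 : K ≤ Mb.comap π := fun x hx => hKM (Subgroup.mem_map_of_mem π hx)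
          have h2 : Mb.comap π ≤ D := by
            intro x hx
            obtain ⟨d, hd, h3⟩ := hMD hx
            have h4 : d⁻¹ * x ∈ L := by
              rw [← hπker, MonoidHom.mem_ker, map_mul, map_inv, h3, inv_mul_cancel]
            have := D.mul_mem hd (hKD (hLK h4))
            simpa using this
          rcases hminD _ (hMb.comap π) h1 h2 with h3 | h3
          · left
            rw [← hMmap, h3]
          · right
            rw [← hMmap, h3])
  -- back to `G`
  refine ⟨inflate L ψb, ?_, L, ?_, hLK'⟩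
  · have h1 : charDegree ((inflate L ψb : IrrCharacter G) : G → ℂ) = charDegree (ψb : G ⧸ L → ℂ) :=
      charDegree_comp_monoidHom (QuotientGroup.mk' L) _
    have h2 : charDegree ((inflate L ψ₀ : IrrCharacter G) : G → ℂ) = charDegree (ψ₀ : G ⧸ L → ℂ) :=
      charDegree_comp_monoidHom (QuotientGroup.mk' L) _
    rw [hψ₀] at h2
    rw [h1, h2]
    exact hdeg
  · intro g
    constructor
    · intro hg
      exact inflate_kerContains L ψb g hg
    · intro hg
      have h1 : (ψb : G ⧸ L → ℂ) (π g) = (ψb : G ⧸ L → ℂ) 1 := by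
        have h2 := hg
        simp only [inflate_apply] at h2
        exact h2
      have h3 := hfaith _ h1
      rw [← hπker, MonoidHom.mem_ker]
      exact h3

/-- The kernel theorem. -/
theorem exists_larger_degree_smaller_kernel (χ : IrrCharacter G) (K : Subgroup G) [hKn : K.Normal]
    (hK : ∀ g, g ∈ K ↔ (χ : G → ℂ) g = (χ : G → ℂ) 1)
    (h : ¬ K ≤ fittingSubgroup G ∨ (K = fittingSubgroup G ∧ Group.IsSolvable (G ⧸ K) ∧ K ≠ ⊤)) :
    ∃ ψ : IrrCharacter G, charDegree (χ : G → ℂ) < charDegree (ψ : G → ℂ) ∧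
      ∃ L : Subgroup G, (∀ g, g ∈ L ↔ (ψ : G → ℂ) g = (ψ : G → ℂ) 1) ∧ L < K := by
  classical
  rcases h with h | ⟨hKF, hsolv, htop⟩
  · refine kernel_transfer χ K K hK le_rfl ?_ ⟨0, ?_⟩ (Or.inl rfl)
    · intro hn
      exact h (Cfsg.Agent.Lib.Core.le_fittingSubgroup hKn hn)
    · simp
  · let 𝓜 : Set (Subgroup G) := {M | M.Normal ∧ K < M}
    have htopm : (⊤ : Subgroup G) ∈ 𝓜 := ⟨inferInstance, lt_top_iff_ne_top.mpr htop⟩
    obtain ⟨D, hDmin⟩ := (Set.toFinite 𝓜).exists_minimal ⟨⊤, htopm⟩
    obtain ⟨hDn, hKD⟩ := hDmin.1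
    haveI := hDn
    have hmin : ∀ M : Subgroup G, M.Normal → K ≤ M → M ≤ D → M = K ∨ M = D := by
      intro M hM hKM hMD
      by_cases hMK : M = K
      · exact Or.inl hMK
      · right
        have h1 : K < M := lt_of_le_of_ne hKM (Ne.symm hMK)
        exact le_antisymm hMD (hDmin.2 ⟨hM, h1⟩ hMD)
    have hKnil : Group.IsNilpotent K := by
      rw [hKF]
      exact Cfsg.Agent.Lib.Core.isNilpotent_fittingSubgroup G
    refine kernel_transfer χ K D hK hKD.le ?_ ⟨1, ?_⟩ (Or.inr ⟨hKnil, hmin⟩)
    · intro hn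
      have h1 := Cfsg.Agent.Lib.Core.le_fittingSubgroup hDn hn
      rw [← hKF] at h1
      exact absurd h1 (not_le_of_gt hKD)
    · rw [Subgroup.lowerCentralSeries_succ, Subgroup.lowerCentralSeries_zero]
      have hMn : (⁅D, D⁆ ⊔ K).Normal := inferInstance
      rcases hmin _ hMn le_sup_right (sup_le (Subgroup.commutator_le_left D D) hKD.le) with h1 | h1
      · rw [← h1]
        exact le_sup_left
      · exfalso
        let π : G →* G ⧸ K := QuotientGroup.mk' K
        have h2 : K.map π = ⊥ := by
          rw [eq_bot_iff, Subgroup.map_le_iff_le_comap]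
          intro x hx
          rw [Subgroup.mem_comap, Subgroup.mem_bot]
          exact (QuotientGroup.eq_one_iff x).mpr hx
        have h3 : D.map π = ⁅D.map π, D.map π⁆ := by
          conv_lhs => rw [← h1]
          rw [Subgroup.map_sup, h2, sup_bot_eq, Subgroup.map_commutator]
        have h4 : ∀ n, D.map π ≤ derivedSeries (G ⧸ K) n := by
          intro n
          induction n with
          | zero => exact le_top
          | succ n ih =>
            rw [derivedSeries_succ, h3]
            exact Subgroup.commutator_mono ih ih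
        obtain ⟨n, hn⟩ := (isSolvable_def (G ⧸ K)).mp hsolv
        have h5 := h4 n
        rw [hn] at h5
        apply not_le_of_gt hKD
        intro x hx
        have h6 := h5 (Subgroup.mem_map_of_mem π hx)
        rw [Subgroup.mem_bot] at h6
        exact (QuotientGroup.eq_one_iff x).mp h6

end Core

end Cfsg.Agent.Lib.Coprime
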